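import Mathlib
import Cfsg.Agent.Lib.Helper81.BrConj
import Cfsg.Agent.Lib.Helper81.BrPairs
import Cfsg.Agent.Lib.Helper33.KleinPair

/-!
# Orbit–stabilizer for the conjugates of a Brauer pair (helper33)
-/

set_option autoImplicit false

namespace Cfsg.Agent.Lib.Helper33.TGC

open Cfsg Cfsg.Agent.Lib.Helper81

variable {G : Type*} [Group G] [Fintype G]

/-- PIECE TGC-CNT : orbit–stabilizer for the conjugates of the pair `(P, b)`. -/
theorem card_conj (P : Subgroup G)
    (b : Set (IrrCharacter (Subgroup.centralizer (P : Set G))))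
    (S : Set (Set (IrrCharacter (Subgroup.centralizer (P : Set G)))))
    (T : Subgroup G)
    (hstab : ∀ g : G, conjPair g (⟨P, b⟩ : BrauerPairIdx G) = ⟨P, b⟩ ↔ g ∈ T)
    (hconj : ∀ c, c ∈ S ↔ ∃ g : G, conjPair g (⟨P, b⟩ : BrauerPairIdx G) = ⟨P, c⟩) :
    Nat.card S = T.relIndex (Subgroup.normalizer (P : Set G)) := by
  classical
  -- the map `N → S`
  have hex : ∀ n : Subgroup.normalizer (P : Set G),
      ∃ c : S, conjPair (n : G) (⟨P, b⟩ : BrauerPairIdx G) = ⟨P, (c : Set _)⟩ := by
    intro n
    have h1 : (conjPair (n : G) (⟨P, b⟩ : BrauerPairIdx G)).1 = P :=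
      conj_map_eq_of_mem_normalizer P n n.2
    obtain ⟨c, hc⟩ := Klein.exists_snd _ P h1
    exact ⟨⟨c, (hconj c).mpr ⟨n, hc.symm⟩⟩, hc.symm⟩
  choose f hf using hex
  have hsurj : Function.Surjective f := by
    rintro ⟨c, hc⟩
    obtain ⟨g, hg⟩ := (hconj c).mp hc
    have hgN : g ∈ Subgroup.normalizer (P : Set G) :=
      mem_normalizer_of_conj_map_eq P g (congrArg Sigma.fst hg)
    refine ⟨⟨g, hgN⟩, ?_⟩
    have h2 := (hf ⟨g, hgN⟩).symm.trans hg
    apply Subtype.ext
    exact eq_of_heq (Sigma.mk.inj_iff.mp h2).2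
  have hker : ∀ n n' : Subgroup.normalizer (P : Set G),
      f n = f n' ↔ n⁻¹ * n' ∈ T.subgroupOf (Subgroup.normalizer (P : Set G)) := by
    intro n n'
    rw [Subgroup.mem_subgroupOf, Subgroup.coe_mul, Subgroup.coe_inv, ← hstab,
      ← conjPair_mul]
    constructor
    · intro h
      rw [hf n', ← h, ← hf n, conjPair_inv_conjPair]
    · intro h
      have h2 : conjPair (n : G) (conjPair (n : G)⁻¹
          (conjPair (n' : G) (⟨P, b⟩ : BrauerPairIdx G))) =
          conjPair (n : G) (⟨P, b⟩ : BrauerPairIdx G) := by rw [h]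
      rw [conjPair_conjPair_inv, hf n, hf n'] at h2
      apply Subtype.ext
      exact (eq_of_heq (Sigma.mk.inj_iff.mp h2).2).symm
  -- the bijection with the cosets
  have hlift : ∀ n n' : Subgroup.normalizer (P : Set G),
      (QuotientGroup.leftRel (T.subgroupOf (Subgroup.normalizer (P : Set G)))).r n n' →
        f n = f n' := by
    intro n n' h
    rw [hker]
    exact QuotientGroup.leftRel_apply.mp h
  have hbij : Function.Bijective (Quotient.lift f hlift :
      Subgroup.normalizer (P : Set G) ⧸ T.subgroupOf (Subgroup.normalizer (P : Set G)) → S) := by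
    constructor
    · intro q q' h
      induction q using Quotient.inductionOn with | _ n => ?_
      induction q' using Quotient.inductionOn with | _ n' => ?_
      apply Quotient.sound
      exact QuotientGroup.leftRel_apply.mpr ((hker n n').mp h)
    · intro c
      obtain ⟨n, hn⟩ := hsurj c
      exact ⟨Quotient.mk _ n, hn⟩
  rw [Subgroup.relIndex, Subgroup.index]
  exact (Nat.card_congr (Equiv.ofBijective _ hbij)).symm

end Cfsg.Agent.Lib.Helper33.TGC
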