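import Mathlib
import Cfsg.Agent.Lib.Helper33.BFOne
import Cfsg.Agent.Lib.Helper33.KleinPair

/-!
# Generalized decomposition numbers at the canonical character (helper33)

A copy of `exists_gendec` recording in addition that the character `ξ₀` is the only member of
the block `c` with `⟨z⟩` in its kernel; then the package `gd_exists` for a block with a Sylow
defect group of order `p`.
-/

set_option autoImplicit false
set_option linter.style.haveILetI false
set_option maxHeartbeats 1600000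

namespace Cfsg.Agent.Lib.Helper33.TGC

open Cfsg Cfsg.Agent.Lib.Helper80.GenDec Cfsg.Agent.Lib.Helper80.Contrib
open Cfsg.Agent.Lib.Helper4 Cfsg.Agent.Lib.Helper21 Cfsg.Agent.Lib.Helper22
open Cfsg.Agent.Lib.Helper80.K2 Cfsg.Agent.Lib.Helper80.Major Cfsg.Agent.Lib.Helper81
open Cfsg.Agent.Lib.Helper33.BF
open scoped ComplexConjugate

section One

variable {G : Type*} [Group G] [Fintype G] {p : ℕ} [Fact p.Prime] {M : Ideal AlgInt}
variable (H : Subgroup G) [Fintype H] [Fintype (IrrCharacter H)]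

open scoped Classical in
/-- The rank one structure of a subsection of a block of defect one. -/
theorem exists_gendec_canon (hM : IsPModular p M) (z : H) (hz : z ∈ Subgroup.center H)
    (hn : orderOf (z : G) = p) (hCH : Subgroup.centralizer ({(z : G)} : Set G) ≤ H)
    (c : Set (IrrCharacter H)) (β : Set (IrrCharacter G)) (hind : IsInducedBlock M H c β)
    (hβ1 : blockDefect p β = 1) (ζ : ℂ) (hζ : IsPrimitiveRoot ζ p) :
    ∃ (ξ₀ : IrrCharacter H) (v : ZMod p → IrrCharacter G → ℤ),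
      (∀ a θ, θ ∉ β → v a θ = 0) ∧
      (∑ ξ : IrrCharacter H, (if ξ ∈ c then conj (ξ.1 1) * ξ.1 1 else 0) =
        (p : ℂ) * (conj (ξ₀.1 1) * ξ₀.1 1)) ∧
      (∀ (t : ZMod p) (θ : IrrCharacter G), θ ∈ β → ∀ s : H, ¬ p ∣ orderOf s →
        X H c ((z ^ t.val : H) : G) θ s =
          (∑ a : ZMod p, (v a θ : ℂ) * ζ ^ (a * t).val) * ξ₀.1 s) ∧
      (∀ θ₁ : IrrCharacter H, θ₁ ∈ c → (∀ x : H, x ∈ Subgroup.zpowers z → θ₁.1 x = θ₁.1 1) →
        θ₁ = ξ₀) := by
  have hp : p.Prime := Fact.out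
  have hpc : (p : ℂ) ≠ 0 := Nat.cast_ne_zero.mpr hp.ne_zero
  have hc : IsPBlock M c := hind.1
  have hzp : z ^ p = 1 := by
    apply Subtype.ext
    rw [Subgroup.coe_pow, ← hn]
    exact pow_orderOf_eq_one _
  obtain ⟨D, hD⟩ : ∃ D : Subgroup H, D = Subgroup.zpowers z := ⟨_, rfl⟩
  have hDZ : D ≤ Subgroup.center H := by
    rw [hD, Subgroup.zpowers_le]; exact hz
  have hDcard : Nat.card D = p ^ 1 := by
    rw [hD, Nat.card_zpowers, pow_one, ← hn, Subgroup.orderOf_coe]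
  have hDp : IsPGroup p D := IsPGroup.of_card hDcard
  haveI hDn : D.Normal := by
    constructor
    intro n hn' g
    have := Subgroup.mem_center_iff.mp (hDZ hn') g
    rw [this, mul_inv_cancel_right]
    exact hn'
  letI : Fintype (H ⧸ D) := Fintype.ofFinite _
  haveI := irr_finite (G := H ⧸ D)
  letI := Fintype.ofFinite (IrrCharacter (H ⧸ D))
  have hC : ∃ k : ℕ, (Subgroup.centralizer (D : Set H)).index = p ^ k :=
    ⟨0, by rw [Subgroup.centralizer_eq_top_iff_subset.mpr hDZ]; simp⟩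
  obtain ⟨c', hc'def⟩ : ∃ c' : Set (IrrCharacter (H ⧸ D)),
      c' = {θ | Cfsg.Agent.Lib.Helper83.inflate D θ ∈ c} := ⟨_, rfl⟩
  have hmemc' : ∀ θ : IrrCharacter (H ⧸ D), θ ∈ c' ↔ Cfsg.Agent.Lib.Helper83.inflate D θ ∈ c := by
    intro θ; rw [hc'def]; rfl
  have hc' : IsPBlock M c' := by
    rw [hc'def]; exact isPBlock_deflate hM D hDp hC c hc
  have hle1 := blockDefect_deflate_le hM c hc D hDp 1 hDcard
  have hle2 := Cfsg.Agent.Lib.Helper82.blockDefect_le_of_induced hM H c β hind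
  rw [← hc'def] at hle1
  have hdc : blockDefect p c = 1 := by omega
  have hdc' : blockDefect p c' = 0 := by omega
  have hcard' : Nat.card c' = 1 := ((Cfsg.Agent.S4733.result p M hM c' hc').2.1.mp hdc').1
  obtain ⟨θ₀, hθ₀⟩ := id hc'
  have hθ₀c' : θ₀ ∈ c' := by
    rw [hθ₀]; exact Cfsg.Agent.Lib.Helper79.mem_blockOf_self hM θ₀
  have huniq : ∀ θ ∈ c', θ = θ₀ := by
    intro θ hθ
    have := Finite.card_le_one_iff_subsingleton.mp hcard'.le
    have h1 := @Subsingleton.elim _ this (⟨θ, hθ⟩ : c') ⟨θ₀, hθ₀c'⟩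
    exact congrArg Subtype.val h1
  obtain ⟨ξ₀, hξ₀⟩ : ∃ ξ₀ : IrrCharacter H, ξ₀ = Cfsg.Agent.Lib.Helper83.inflate D θ₀ :=
    ⟨_, rfl⟩
  have hξ₀c : ξ₀ ∈ c := by
    rw [hξ₀]; exact (hmemc' θ₀).mp hθ₀c'
  have hker : ∀ s t : H, ¬ p ∣ orderOf s → ¬ p ∣ orderOf t →
      ∑ ξ : IrrCharacter H, (if ξ ∈ c then ξ.1 s * conj (ξ.1 t) else 0) =
        (p : ℂ) * (ξ₀.1 s * conj (ξ₀.1 t)) := by
    intro s t hs ht
    rw [block_kernel_deflate hM c hc D hDZ hDp s t hs ht, hDcard, pow_one]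
    congr 1
    rw [Finset.sum_eq_single θ₀]
    · rw [if_pos ((hmemc' θ₀).mp hθ₀c'), hξ₀]
      rfl
    · intro θ _ hne
      rw [if_neg]
      intro h
      exact hne (huniq θ ((hmemc' θ).mpr h))
    · intro h; exact absurd (Finset.mem_univ _) h
  obtain ⟨w, hw⟩ : ∃ w : IrrCharacter H → ℤ, ∀ ξ, w ξ = cc H p c ξ ξ₀ := ⟨_, fun _ => rfl⟩
  have hκ : (Nat.card H : ℂ) = ((kap H p c : ℝ) : ℂ) * (p : ℂ) := by
    have h2 := card_eq_split (p := p) H c
    rw [← kap_cast, hdc] at h2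
    rw [h2]
    push_cast
    ring
  have hκ0 : ((kap H p c : ℝ) : ℂ) ≠ 0 := by
    exact_mod_cast (kap_pos H c).ne'
  have hwreg : ∀ ξ ∈ c, ∀ t : H, ¬ p ∣ orderOf t → ξ.1 t = (w ξ : ℂ) * ξ₀.1 t := by
    intro ξ hξ t ht
    have h2 := kernel_repro hM c hc ξ.1 t ht
    rw [blockPart_irr, if_pos hξ] at h2
    have h3 : ∀ s' : H, (if p ∣ orderOf s' then (0 : ℂ) else conj (ξ.1 s') *
        ∑ ξ' : IrrCharacter H, (if ξ' ∈ c then conj (ξ'.1 t) * ξ'.1 s' else 0)) =
        (p : ℂ) * conj (ξ₀.1 t) *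
          conj (if p ∣ orderOf s' then 0 else ξ.1 s' * conj (ξ₀.1 s')) := by
      intro s'
      by_cases hs' : p ∣ orderOf s'
      · simp [hs']
      · simp only [if_neg hs']
        have h5 : ∑ ξ' : IrrCharacter H, (if ξ' ∈ c then conj (ξ'.1 t) * ξ'.1 s' else 0) =
            ∑ ξ' : IrrCharacter H, (if ξ' ∈ c then ξ'.1 s' * conj (ξ'.1 t) else 0) :=
          Finset.sum_congr rfl fun ξ' _ => by rw [mul_comm]
        rw [h5, hker s' t hs' ht, map_mul, Complex.conj_conj]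
        ring
    rw [Finset.sum_congr rfl (fun s' _ => h3 s'), ← Finset.mul_sum, ← map_sum, ← Q_def,
      ← cc_gram H hM c hc ξ hξ ξ₀, ← kap_cast, hκ] at h2
    rw [hw]
    have h4 : conj (ξ.1 t) = conj ((cc H p c ξ ξ₀ : ℂ) * ξ₀.1 t) := by
      apply mul_left_cancel₀ (mul_ne_zero hκ0 hpc)
      rw [← h2, map_mul, map_mul, map_intCast, Complex.conj_ofReal]
      ring
    exact (starRingEnd ℂ).injective h4
  have hexp : ∀ ξ : IrrCharacter H, ∃ a : ZMod p, eps H z ξ = ζ ^ a.val := by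
    intro ξ
    obtain ⟨i, hi, hie⟩ := hζ.eq_pow_of_pow_eq_one (eps_pow_eq_one H z hz ξ p hzp)
    refine ⟨(i : ZMod p), ?_⟩
    rw [ZMod.val_natCast, Nat.mod_eq_of_lt hi, hie]
  choose κ hκe using hexp
  have hζpow : ∀ a b : ZMod p, (ζ ^ a.val) ^ b.val = ζ ^ (a * b).val := by
    intro a b
    rw [← pow_mul, ZMod.val_mul]
    conv_lhs => rw [← Nat.mod_add_div (a.val * b.val) p]
    rw [pow_add, pow_mul, hζ.pow_eq_one, one_pow, mul_one]
  obtain ⟨v, hv⟩ : ∃ v : ZMod p → IrrCharacter G → ℤ, ∀ a θ, v a θ =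
      if θ ∈ β then ∑ ξ : IrrCharacter H,
        (if ξ ∈ c ∧ κ ξ = a then (resMult H θ ξ : ℤ) * w ξ else 0) else 0 :=
    ⟨_, fun _ _ => rfl⟩
  have h1reg : ¬ p ∣ orderOf (1 : H) := by
    rw [orderOf_one]; exact hp.not_dvd_one
  refine ⟨ξ₀, v, ?_, ?_, ?_, ?_⟩
  rotate_left 3
  · intro θ₁ hθ₁ hk
    obtain ⟨ψ, hψ⟩ := Cfsg.Agent.Lib.Helper83.exists_inflate_eq D θ₁ (by rw [hD]; exact hk)
    have hψc : ψ ∈ c' := (hmemc' ψ).mpr (by rw [hψ]; exact hθ₁)
    rw [← hψ, huniq ψ hψc, hξ₀]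
  · intro a θ hθ
    rw [hv, if_neg hθ]
  · have h2 := hker 1 1 h1reg h1reg
    rw [mul_comm (conj (ξ₀.1 1)), ← h2]
    refine Finset.sum_congr rfl fun ξ _ => ?_
    by_cases hξ : ξ ∈ c
    · rw [if_pos hξ, if_pos hξ, mul_comm]
    · rw [if_neg hξ, if_neg hξ]
  · intro t θ hθ s hs
    have hz' : z ^ t.val ∈ Subgroup.center H := Subgroup.pow_mem _ hz _
    rw [X_expand H c θ (z ^ t.val) hz']
    have e1 : ∑ a : ZMod p, (v a θ : ℂ) * ζ ^ (a * t).val =
        ∑ ξ : IrrCharacter H, (if ξ ∈ c then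
          (resMult H θ ξ : ℂ) * (w ξ : ℂ) * ζ ^ (κ ξ * t).val else 0) := by
      simp only [hv, if_pos hθ]
      push_cast
      simp only [Finset.sum_mul]
      rw [Finset.sum_comm]
      refine Finset.sum_congr rfl fun ξ _ => ?_
      by_cases hξ : ξ ∈ c
      · rw [if_pos hξ, Finset.sum_eq_single (κ ξ)]
        · rw [if_pos ⟨hξ, rfl⟩]
        · intro a _ hne
          rw [if_neg (fun h => hne h.2.symm), zero_mul]
        · intro h; exact absurd (Finset.mem_univ _) h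
      · rw [if_neg hξ]
        refine Finset.sum_eq_zero fun a _ => ?_
        rw [if_neg (fun h => hξ h.1), zero_mul]
    rw [e1, Finset.sum_mul]
    refine Finset.sum_congr rfl fun ξ _ => ?_
    by_cases hξ : ξ ∈ c
    · rw [if_pos hξ, if_pos hξ, eps_pow H z hz, hκe ξ, hζpow, hwreg ξ hξ s hs]
      ring
    · rw [if_neg hξ, if_neg hξ, zero_mul, zero_mul]


end One

section Two

variable {G : Type*} [Group G] [Fintype G] {p : ℕ} [Fact p.Prime] {M : Ideal AlgInt}

omit [Fintype G] in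
theorem order_eq (P : Sylow p G) (hP : Nat.card P = p) (z : G) (hz : z ∈ (P : Subgroup G))
    (hz1 : z ≠ 1) : orderOf z = p := by
  have hp : p.Prime := Fact.out
  have h1 : orderOf z ∣ p := by
    have h2 := Subgroup.orderOf_dvd_natCard (P : Subgroup G) hz
    have hP' : Nat.card (P : Subgroup G) = p := hP
    rwa [hP'] at h2
  rcases (Nat.dvd_prime hp).mp h1 with h | h
  · exact absurd (orderOf_eq_one_iff.mp h) hz1
  · exact h

theorem sylow_eq (P : Sylow p G) (hP : Nat.card P = p) (z : G) (hz : z ∈ (P : Subgroup G))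
    (hz1 : z ≠ 1) : (P : Subgroup G) = Subgroup.zpowers z := by
  symm
  apply Subgroup.eq_of_le_of_card_ge (Subgroup.zpowers_le.mpr hz)
  have hP' : Nat.card (P : Subgroup G) = p := hP
  rw [Nat.card_zpowers, order_eq P hP z hz hz1, hP']

open scoped Classical in
/-- The generalized decomposition numbers of a block with Sylow defect group `P = ⟨z⟩` of order
`p` at the subsection `(z, b)`, expressed with the canonical character `θ` of `b`. -/
theorem gd_exists [Fintype (IrrCharacter G)] (hM : IsPModular p M) (P : Sylow p G)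
    (hP : Nat.card P = p)
    (B : Set (IrrCharacter G)) (hB : IsPBlock M B) (hBP : IsDefectGroup p M B P)
    (b : Set (IrrCharacter (Subgroup.centralizer ((P : Subgroup G) : Set G))))
    (hind : IsInducedBlock M (Subgroup.centralizer ((P : Subgroup G) : Set G)) b B)
    (θ : IrrCharacter (Subgroup.centralizer ((P : Subgroup G) : Set G))) (hθ : θ ∈ b)
    (hθP : ∀ x : Subgroup.centralizer ((P : Subgroup G) : Set G), (x : G) ∈ (P : Subgroup G) →
      (θ : Subgroup.centralizer ((P : Subgroup G) : Set G) → ℂ) x =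
        (θ : Subgroup.centralizer ((P : Subgroup G) : Set G) → ℂ) 1)
    (z : G) (hz : z ∈ (P : Subgroup G)) (hz1 : z ≠ 1) (ζ : ℂ) (hζ : IsPrimitiveRoot ζ p) :
    ∃ v : ZMod p → IrrCharacter G → ℤ,
      (∀ a χ, χ ∉ B → v a χ = 0) ∧
      (∀ (t : ZMod p) (χ : IrrCharacter G), χ ∈ B →
        ∀ s : Subgroup.centralizer ((P : Subgroup G) : Set G), ¬ p ∣ orderOf s →
          blockPart b (fun x : Subgroup.centralizer ((P : Subgroup G) : Set G) =>
            (χ : G → ℂ) (z ^ t.val * (x : G))) s =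
            (∑ a : ZMod p, (v a χ : ℂ) * ζ ^ (a * t).val) *
              (θ : Subgroup.centralizer ((P : Subgroup G) : Set G) → ℂ) s) ∧
      (∀ t : ZMod p, t ≠ 0 → ∑ χ : IrrCharacter G,
        (∑ a : ZMod p, (v a χ : ℂ) * ζ ^ (a * t).val) *
          conj (∑ a : ZMod p, (v a χ : ℂ) * ζ ^ (a * t).val) = (p : ℂ)) ∧
      (∀ χ ∈ B, ∑ a : ZMod p, (v a χ : ℂ) * ζ ^ (a * (1 : ZMod p)).val ≠ 0) ∧
      (∀ f : IrrCharacter G → ℂ, (∀ χ, χ ∉ B → f χ = 0) →
        (∀ k : G, p ∣ orderOf k → ∑ χ : IrrCharacter G, f χ * (χ : G → ℂ) k = 0) →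
        ∀ t : ZMod p, t ≠ 0 →
          ∑ χ : IrrCharacter G, f χ * (∑ a : ZMod p, (v a χ : ℂ) * ζ ^ (a * t).val) = 0) ∧
      (∀ θ' ∈ b, (∀ x : Subgroup.centralizer ((P : Subgroup G) : Set G),
        (x : G) ∈ (P : Subgroup G) →
        (θ' : Subgroup.centralizer ((P : Subgroup G) : Set G) → ℂ) x =
          (θ' : Subgroup.centralizer ((P : Subgroup G) : Set G) → ℂ) 1) → θ' = θ) := by
  have hp : p.Prime := Fact.out
  have hou : orderOf z = p := order_eq P hP z hz hz1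
  have hPu : (P : Subgroup G) = Subgroup.zpowers z := sylow_eq P hP z hz hz1
  letI : Fintype (Subgroup.centralizer ((P : Subgroup G) : Set G)) := Fintype.ofFinite _
  haveI := irr_finite (G := Subgroup.centralizer ((P : Subgroup G) : Set G))
  letI := Fintype.ofFinite (IrrCharacter (Subgroup.centralizer ((P : Subgroup G) : Set G)))
  have hβ1 : blockDefect p B = 1 := by
    have h1 := Cfsg.Agent.Lib.Helper82.card_defectGroup hM B hB (P : Subgroup G) hBP
    have hP' : Nat.card (P : Subgroup G) = p := hP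
    rw [hP'] at h1
    have h2 : p ^ 1 = p ^ blockDefect p B := by rw [pow_one]; exact h1
    exact (Nat.pow_right_injective hp.two_le h2).symm
  have huH : z ∈ Subgroup.centralizer ((P : Subgroup G) : Set G) := by
    rw [Subgroup.mem_centralizer_iff]
    intro g hg
    have hg' : g ∈ (P : Subgroup G) := hg
    rw [hPu] at hg'
    obtain ⟨i, rfl⟩ := Subgroup.mem_zpowers_iff.mp hg'
    exact ((Commute.refl z).zpow_left i).eq
  obtain ⟨zc, hzdef⟩ : ∃ zc : Subgroup.centralizer ((P : Subgroup G) : Set G), (zc : G) = z :=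
    ⟨⟨z, huH⟩, rfl⟩
  have hzc : zc ∈ Subgroup.center (Subgroup.centralizer ((P : Subgroup G) : Set G)) := by
    rw [Subgroup.mem_center_iff]
    intro g
    apply Subtype.ext
    rw [Subgroup.coe_mul, Subgroup.coe_mul, hzdef]
    exact (Subgroup.mem_centralizer_iff.mp g.2 z hz).symm
  have hn : orderOf (zc : G) = p := by rw [hzdef]; exact hou
  have hCH : Subgroup.centralizer ({(zc : G)} : Set G) ≤
      Subgroup.centralizer ((P : Subgroup G) : Set G) := by
    rw [hzdef, hPu]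
    exact (Klein.centralizer_singleton_eq z).le
  obtain ⟨ξ₀, v, hsupp, hnorm, hKD, hcanon⟩ :=
    exists_gendec_canon _ hM zc hzc hn hCH b B hind hβ1 ζ hζ
  have hkerP : ∀ (θ' : IrrCharacter (Subgroup.centralizer ((P : Subgroup G) : Set G))),
      (∀ x : Subgroup.centralizer ((P : Subgroup G) : Set G), (x : G) ∈ (P : Subgroup G) →
        (θ' : Subgroup.centralizer ((P : Subgroup G) : Set G) → ℂ) x =
          (θ' : Subgroup.centralizer ((P : Subgroup G) : Set G) → ℂ) 1) →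
      ∀ x : Subgroup.centralizer ((P : Subgroup G) : Set G), x ∈ Subgroup.zpowers zc →
        θ'.1 x = θ'.1 1 := by
    intro θ' h x hx
    apply h x
    obtain ⟨i, rfl⟩ := Subgroup.mem_zpowers_iff.mp hx
    rw [Subgroup.coe_zpow, hzdef]
    exact Subgroup.zpow_mem _ hz i
  have hθξ : θ = ξ₀ := hcanon θ hθ (hkerP θ hθP)
  subst hθξ
  refine ⟨v, hsupp, ?_, ?_, ?_, ?_, ?_⟩
  · intro t χ hχ s hs
    rw [← hKD t χ hχ s hs, X_def, Subgroup.coe_pow, hzdef]
  · intro t ht
    exact gendec_norm _ hM zc hzc hn hCH b B hind ζ θ v hsupp hnorm hKD t ht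
  · intro χ hχ
    exact gendec_ne_zero _ hM zc hzc hn b B hind hβ1 ζ θ v hKD χ hχ
  · intro f hf hfs t ht
    exact gendec_orth_of_sing _ hM zc hzc hn hCH b B hind ζ θ v hKD f hf hfs t ht
  · intro θ' hθ' h
    exact hcanon θ' hθ' (hkerP θ' h)

end Two

end Cfsg.Agent.Lib.Helper33.TGC
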