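import Mathlib
import Cfsg.Agent.Lib.Helper33.TGCGD
import Cfsg.Agent.Lib.Helper33.TGFus
import Cfsg.Agent.Lib.Helper33.TGCCNT
import Cfsg.Agent.Lib.Helper22.TGDefs
import Cfsg.Agent.Lib.Helper22.TAP2
import Cfsg.Agent.Lib.Helper22.IndCent2
import Cfsg.Agent.Lib.Helper88.DGKSUB
import Cfsg.Agent.Lib.Helper4.DGKIRR
import Cfsg.Agent.Lib.Helper63.DGORB
import Cfsg.Agent.Lib.Helper75.DGSTAB
import Cfsg.Agent.Lib.Helper63.TGCSUM
import Cfsg.Agent.Lib.Helper82.TGCTRANS
import Cfsg.Agent.Lib.Helper57.TGCSMT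
import Cfsg.Agent.Lib.Helper29.TGCHSMT
import Cfsg.Agent.Lib.Helper82.StrongOrth
import Cfsg.Agent.Lib.Helper66.DGH2R
import Cfsg.Agent.Lib.Helper92.TGCIND

/-!
# Character side of the general defect-one theorem: `gen_pack` (helper33)
-/

set_option autoImplicit false
set_option linter.style.haveILetI false
set_option maxHeartbeats 1600000

namespace Cfsg.Agent.Lib.Helper33.TG

open Cfsg Cfsg.Agent.Lib.Helper22.TG Cfsg.Agent.Lib.Helper81
open Cfsg.Agent.Lib.Helper4 Cfsg.Agent.Lib.Helper21 Cfsg.Agent.Lib.Helper22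
open scoped ComplexConjugate

section

variable {G : Type*} [Group G] [Fintype G]

/-- A power prime to `p` of a `p`-singular element is not conjugate to a power of a `p`-regular
element. -/
theorem sing_pow_ne (p : ℕ) [Fact p.Prime] (g k : G) (hg : ¬ p ∣ orderOf g)
    (hk : p ∣ orderOf k) (c : ℕ) (x : G) (hc : ¬ p ∣ c) : (k⁻¹) ^ c ≠ x⁻¹ * g ^ c * x := by
  have hp : p.Prime := Fact.out
  intro h
  apply hg
  have h1 : orderOf ((k⁻¹) ^ c) = orderOf (g ^ c) := by
    rw [h]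
    have := (MulAut.conj x⁻¹).orderOf_eq (g ^ c)
    rw [MulAut.conj_apply, inv_inv] at this
    exact this
  have h2 : orderOf (g ^ c) ∣ orderOf g := orderOf_pow_dvd c
  have h3 : p ∣ orderOf ((k⁻¹) ^ c) := by
    rw [inv_pow, orderOf_inv, orderOf_pow]
    have hcop : Nat.Coprime p (Nat.gcd (orderOf k) c) :=
      Nat.Coprime.coprime_dvd_right (Nat.gcd_dvd_right _ _)
        ((Nat.Prime.coprime_iff_not_dvd hp).mpr hc)
    have h4 : p ∣ orderOf k / Nat.gcd (orderOf k) c * Nat.gcd (orderOf k) c := by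
      rw [Nat.div_mul_cancel (Nat.gcd_dvd_left _ _)]
      exact hk
    exact (Nat.Coprime.dvd_mul_right hcop).mp h4
  rw [h1] at h3
  exact dvd_trans h3 h2

end

section Main

variable {G : Type*} [Group G] [Fintype G]

/-- CHARACTER SIDE of the general defect-one theorem (interface GP). -/
theorem gen_pack [Fintype (IrrCharacter G)]
    (p : ℕ) [Fact p.Prime] (M : Ideal AlgInt) (hM : IsPModular p M)
    (P : Sylow p G) (hP : Nat.card P = p)
    (B : Set (IrrCharacter G)) (hB : IsPBlock M B) (hBP : IsDefectGroup p M B P)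
    (b : Set (IrrCharacter (Subgroup.centralizer ((P : Subgroup G) : Set G))))
    (hind : IsInducedBlock M (Subgroup.centralizer ((P : Subgroup G) : Set G)) b B)
    (θ : IrrCharacter (Subgroup.centralizer ((P : Subgroup G) : Set G))) (hθ : θ ∈ b)
    (hθP : ∀ x : Subgroup.centralizer ((P : Subgroup G) : Set G), (x : G) ∈ (P : Subgroup G) →
      (θ : Subgroup.centralizer ((P : Subgroup G) : Set G) → ℂ) x =
        (θ : Subgroup.centralizer ((P : Subgroup G) : Set G) → ℂ) 1)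
    (T : Subgroup G)
    (hT : ∀ g : G, g ∈ T ↔ (g ∈ Subgroup.normalizer ((P : Subgroup G) : Set G) ∧
      ∀ c c' : Subgroup.centralizer ((P : Subgroup G) : Set G), (c' : G) = g * c * g⁻¹ →
        (θ : Subgroup.centralizer ((P : Subgroup G) : Set G) → ℂ) c' =
          (θ : Subgroup.centralizer ((P : Subgroup G) : Set G) → ℂ) c))
    (z : G) (hz : z ∈ (P : Subgroup G)) (hz1 : z ≠ 1) :
    ∃ (K : Subgroup G) (θK : IrrCharacter K),
      (∀ y : G, y ∈ K ↔ (y * z = z * y ∧ ¬ p ∣ orderOf y)) ∧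
      charDegree (θK : K → ℂ) =
        charDegree (θ : Subgroup.centralizer ((P : Subgroup G) : Set G) → ℂ) ∧
      Nat.card (orb K (θK : K → ℂ)
        (Subgroup.normalizer ((Subgroup.zpowers z : Subgroup G) : Set G))) =
          T.relIndex (Subgroup.normalizer ((P : Subgroup G) : Set G)) ∧
      (∀ χ ∈ B, ∀ t ∈ Finset.Ico 1 p, ∃ a : G → ℂ,
        (∀ n, n ∉ Subgroup.normalizer ((Subgroup.zpowers z : Subgroup G) : Set G) → a n = 0) ∧
        ∀ y : K, (χ : G → ℂ) (z ^ t * (y : G)) = ∑ n : G, a n * cj K (θK : K → ℂ) n y) ∧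
      ∃ (m e : ℕ) (Θ : Fin m → IrrCharacter G → ℤ), 1 ≤ m ∧ 1 ≤ e ∧ p = 1 + e * m ∧
        (∀ i χ, χ ∉ B → Θ i χ = 0) ∧
        (∀ i j, ∑ χ, Θ i χ * Θ j χ = (if i = j then 1 else 0) + (e : ℤ)) ∧
        (∀ χ ∈ B, ∃ i, Θ i χ ≠ 0) ∧
        (∀ g : G, ¬ p ∣ orderOf g → ∀ i, ∑ χ, (Θ i χ : ℂ) * (χ : G → ℂ) g = 0) ∧
        (e = (Subgroup.centralizer ((P : Subgroup G) : Set G)).relIndex T) ∧
        (∀ χ ∈ B, ∑ t ∈ Finset.Ico 1 p, (χ : G → ℂ) (z ^ t) =
          -(((T.relIndex (Subgroup.normalizer ((P : Subgroup G) : Set G)) *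
            charDegree (θ : Subgroup.centralizer ((P : Subgroup G) : Set G) → ℂ) * e : ℕ) : ℂ) *
              ∑ i, (Θ i χ : ℂ))) := by
  classical
  have hp : p.Prime := Fact.out
  haveI : Fact (1 < p) := ⟨hp.one_lt⟩
  have hP' : Nat.card (P : Subgroup G) = p := hP
  have hou : orderOf z = p := Cfsg.Agent.Lib.Helper33.TGC.order_eq P hP z hz hz1
  have hPu : (P : Subgroup G) = Subgroup.zpowers z :=
    Cfsg.Agent.Lib.Helper33.TGC.sylow_eq P hP z hz hz1
  have hPp : IsPGroup p (P : Subgroup G) := P.isPGroup'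
  have hb : IsPBlock M b := hind.1
  -- the complement and the restriction
  obtain ⟨K, hK⟩ := Cfsg.Agent.Lib.Helper88.DG.exists_K p P hP z hz hz1
  obtain ⟨θK, hθK⟩ := Cfsg.Agent.Lib.Helper4.DG.exists_thetaK p P hP z hz hz1 K hK θ hθP
  have hres : ∀ (y : K) (c : Subgroup.centralizer ((P : Subgroup G) : Set G)),
      (c : G) = (y : G) →
      (θK : K → ℂ) y = (θ : Subgroup.centralizer ((P : Subgroup G) : Set G) → ℂ) c := by
    intro y c hc
    have hy : (y : G) ∈ Subgroup.centralizer ((P : Subgroup G) : Set G) := hc ▸ c.2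
    rw [hθK y hy]
    have hyc : (⟨(y : G), hy⟩ : Subgroup.centralizer ((P : Subgroup G) : Set G)) = c :=
      Subtype.ext hc.symm
    rw [hyc]
  -- generalized decomposition numbers
  obtain ⟨ζ, hζ⟩ : ∃ ζ : ℂ, IsPrimitiveRoot ζ p :=
    ⟨_, Complex.isPrimitiveRoot_exp p hp.ne_zero⟩
  obtain ⟨v, hsupp, hKD0, hnorm, hne, horth, huniq⟩ :=
    Cfsg.Agent.Lib.Helper33.TGC.gd_exists hM P hP B hB hBP b hind θ hθ hθP z hz hz1 ζ hζ
  obtain ⟨D, hD⟩ : ∃ D : ZMod p → IrrCharacter G → ℂ,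
      ∀ t χ, D t χ = ∑ a : ZMod p, (v a χ : ℂ) * ζ ^ (a * t).val := ⟨_, fun _ _ => rfl⟩
  have hKD : ∀ (t : ZMod p) (χ : IrrCharacter G), χ ∈ B →
      ∀ s : Subgroup.centralizer ((P : Subgroup G) : Set G), ¬ p ∣ orderOf s →
        blockPart b (fun x : Subgroup.centralizer ((P : Subgroup G) : Set G) =>
          (χ : G → ℂ) (z ^ t.val * (x : G))) s =
          D t χ * (θ : Subgroup.centralizer ((P : Subgroup G) : Set G) → ℂ) s := by
    intro t χ hχ s hs
    rw [hD]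
    exact hKD0 t χ hχ s hs
  have hDsupp : ∀ t χ, χ ∉ B → D t χ = 0 := by
    intro t χ hχ
    rw [hD]
    refine Finset.sum_eq_zero fun a _ => ?_
    rw [hsupp a χ hχ, Int.cast_zero, zero_mul]
  -- the stabilizer
  have hstab : ∀ g : G, conjPair g (⟨(P : Subgroup G), b⟩ : BrauerPairIdx G) =
      ⟨(P : Subgroup G), b⟩ ↔ g ∈ T := fun g =>
    (Cfsg.Agent.Lib.Helper75.DG.stab_iff hM (P : Subgroup G) b hb θ hθ hθP huniq g).trans
      (hT g).symm
  have hTN : T ≤ Subgroup.normalizer ((P : Subgroup G) : Set G) := fun g hg => ((hT g).mp hg).1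
  have hCT : Subgroup.centralizer ((P : Subgroup G) : Set G) ≤ T := by
    intro g hg
    rw [hT]
    refine ⟨Subgroup.centralizer_le_normalizer _ hg, fun c c' hcc => ?_⟩
    have h1 := Cfsg.Agent.Lib.Helper4.isClassFunction_irr θ c ⟨g, hg⟩
    rw [← h1]
    have hcc' : c' = (⟨g, hg⟩ : Subgroup.centralizer ((P : Subgroup G) : Set G)) * c *
        (⟨g, hg⟩ : Subgroup.centralizer ((P : Subgroup G) : Set G))⁻¹ := Subtype.ext hcc
    rw [hcc']
  -- the maximal pair
  have hpair : IsBrauerPairOf p M B (P : Subgroup G) b :=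
    (isBrauerPairOf_iff_isInducedBlock hM (P : Subgroup G) hPp b B).mpr hind
  have hmax : IsMaximalBrauerPair p M B (P : Subgroup G) b :=
    isMaximalBrauerPair_of_defectGroup hM B (P : Subgroup G) b hpair hBP
  have H2' := fun (t t' : ZMod p) (ht : t ≠ 0) (ht' : t' ≠ 0) =>
    Cfsg.Agent.Lib.Helper66.DG.h2_refined hM B (P : Subgroup G) b hmax hP' z hz hz1 θ D hKD
      hDsupp t t' ht ht'
  have H2 : ∀ t t' : ZMod p, t ≠ 0 → t' ≠ 0 →
      D t = D t' ∨ ∑ χ : IrrCharacter G, D t χ * conj (D t' χ) = 0 := by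
    intro t t' ht ht'
    by_cases hex : ∃ g : G, g * z ^ t'.val * g⁻¹ = z ^ t.val ∧
        conjPair g (⟨(P : Subgroup G), b⟩ : BrauerPairIdx G) = ⟨(P : Subgroup G), b⟩
    · exact Or.inl ((H2' t t' ht ht').1 hex)
    · exact Or.inr ((H2' t t' ht ht').2 hex)
  have H3 : ∀ t : ZMod p, t ≠ 0 → ∑ χ : IrrCharacter G, D t χ * conj (D t χ) = (p : ℂ) := by
    intro t ht
    rw [← hnorm t ht]
    refine Finset.sum_congr rfl fun χ _ => ?_
    rw [hD]
  have H4 : ∀ χ ∈ B, D 1 χ ≠ 0 := by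
    intro χ hχ
    rw [hD]
    exact hne χ hχ
  obtain ⟨m, e, Θ, hm, he, hpem, hΘsupp, hgram, hrow, hiff, hN1, hN2, -⟩ :=
    Cfsg.Agent.Lib.Helper22.TAP.fourier_core_ext p ζ hζ B v hsupp D hD H2 H3 H4
  -- the blocks inducing `B`
  obtain ⟨S, hS⟩ : ∃ S : Set (Set (IrrCharacter (Subgroup.centralizer
      ((P : Subgroup G) : Set G)))), S = {c | IsInducedBlock M
        (Subgroup.centralizer ((P : Subgroup G) : Set G)) c B} := ⟨_, rfl⟩
  have hconj : ∀ c, c ∈ S ↔ ∃ g : G,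
      conjPair g (⟨(P : Subgroup G), b⟩ : BrauerPairIdx G) = ⟨(P : Subgroup G), c⟩ := by
    intro c
    rw [hS]
    exact Cfsg.Agent.Lib.Helper92.TGC.ind_iff_conj p M hM P hP B hB hBP b hind c
  have hcard : Nat.card S = T.relIndex (Subgroup.normalizer ((P : Subgroup G) : Set G)) :=
    Cfsg.Agent.Lib.Helper33.TGC.card_conj (P : Subgroup G) b S T hstab hconj
  have htrans : ∀ c ∈ S, ∃ g ∈ Subgroup.normalizer ((P : Subgroup G) : Set G),
      ∃ k : (ZMod p)ˣ, ∀ χ ∈ B, ∀ (t : ZMod p)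
        (s s' : Subgroup.centralizer ((P : Subgroup G) : Set G)), ¬ p ∣ orderOf s →
          (s' : G) = g⁻¹ * (s : G) * g →
          blockPart c (fun x : Subgroup.centralizer ((P : Subgroup G) : Set G) =>
            (χ : G → ℂ) (z ^ ((k : ZMod p) * t).val * (x : G))) s =
            D t χ * (θ : Subgroup.centralizer ((P : Subgroup G) : Set G) → ℂ) s' := by
    intro c hc
    obtain ⟨g, hg⟩ := (hconj c).mp hc
    obtain ⟨hgN, k, hk⟩ :=
      Cfsg.Agent.Lib.Helper82.TGC.trans_part p P hP B b θ z hz hz1 D hKD c g hg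
    exact ⟨g, hgN, k, hk⟩
  have hsmt : ∀ χ ∈ B, ∀ t : ℕ, ¬ p ∣ t →
      ∀ s : Subgroup.centralizer ((P : Subgroup G) : Set G), ¬ p ∣ orderOf s →
        (χ : G → ℂ) (z ^ t * (s : G)) = ∑ᶠ c ∈ S,
          blockPart c (fun x : Subgroup.centralizer ((P : Subgroup G) : Set G) =>
            (χ : G → ℂ) (z ^ t * (x : G))) s := by
    intro χ hχ t ht s hs
    rw [hS]
    exact Cfsg.Agent.Lib.Helper57.TGC.smt_sum p M hM P hP B hB z hz hz1 χ hχ t ht s hs
  have h1reg : ¬ p ∣ orderOf (1 : Subgroup.centralizer ((P : Subgroup G) : Set G)) := by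
    rw [orderOf_one]; exact hp.not_dvd_one
  have hdeg : ((charDegree (θ : Subgroup.centralizer ((P : Subgroup G) : Set G) → ℂ) : ℕ) : ℂ) =
      (θ : Subgroup.centralizer ((P : Subgroup G) : Set G) → ℂ) 1 :=
    (Cfsg.Agent.Lib.Helper82.irr_charDegree θ).1
  refine ⟨K, θK, hK, ?_, ?_, ?_, m, e, Θ, hm, he, hpem, hΘsupp, hgram, hrow, ?_, ?_, ?_⟩
  · -- degrees
    unfold charDegree
    rw [hres 1 1 rfl]
  · -- the orbit
    rw [← hPu]
    exact Cfsg.Agent.Lib.Helper63.DG.card_orb p P hP z hz hz1 K hK θ hθP θK hθK T hT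
  · -- the values on `z ^ t * K`
    exact Cfsg.Agent.Lib.Helper29.TGC.hsmt_of p P hP B θ z hz hz1 K θK hK hres D S hsmt htrans
  · -- orthogonality to the `p`-regular columns
    intro g hg i
    obtain ⟨y, hy⟩ : ∃ y : IrrCharacter G → ℂ, ∀ χ, y χ = if χ ∈ B then (χ : G → ℂ) g else 0 :=
      ⟨_, fun _ => rfl⟩
    have hyB : ∀ χ, χ ∉ B → y χ = 0 := fun χ hχ => by rw [hy, if_neg hχ]
    have hys : ∀ k : G, p ∣ orderOf k → ∑ χ : IrrCharacter G, y χ * (χ : G → ℂ) k = 0 := by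
      intro k hk
      have h1 := Cfsg.Agent.Lib.Helper82.strong_block_orth hM B hB g k⁻¹
        (fun c x hc => sing_pow_ne p g k hg hk c x hc)
      rw [finsum_mem_def, finsum_eq_sum_of_fintype] at h1
      rw [← h1]
      refine Finset.sum_congr rfl fun χ _ => ?_
      rw [hy, Set.indicator_apply]
      by_cases hχ : χ ∈ B
      · rw [if_pos hχ, if_pos hχ, Cfsg.Agent.Lib.Helper82.irr_inv, Complex.conj_conj]
      · rw [if_neg hχ, if_neg hχ, zero_mul]
    have h2 : ∀ t : ZMod p, t ≠ 0 → ∑ χ : IrrCharacter G, y χ * D t χ = 0 := by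
      intro t ht
      have h3 := horth y hyB hys t ht
      rw [← h3]
      refine Finset.sum_congr rfl fun χ _ => ?_
      rw [hD]
    have h4 := (hiff y).mpr h2 i
    rw [← h4]
    refine Finset.sum_congr rfl fun χ _ => ?_
    rw [hy]
    by_cases hχ : χ ∈ B
    · rw [if_pos hχ, mul_comm]
    · rw [if_neg hχ, hΘsupp i χ hχ, Int.cast_zero, zero_mul, zero_mul]
  · -- the inertial index
    rw [← card_fusion_sub p P hP z hz hz1 T hCT hTN, ← hN1]
    apply Nat.card_congr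
    apply Equiv.subtypeEquivRight
    intro s
    have hs0 : (s : ZMod p) ≠ 0 := Units.ne_zero s
    have h10 : (1 : ZMod p) ≠ 0 := one_ne_zero
    constructor
    · intro hs
      by_contra hne'
      have h1 := (H2' (s : ZMod p) 1 hs0 h10).2 (by
        rintro ⟨g, hg1, hg2⟩
        apply hne'
        refine ⟨g, (hstab g).mp hg2, ?_⟩
        rw [ZMod.val_one, pow_one] at hg1
        exact hg1)
      rw [hs, H3 1 h10] at h1
      exact hp.ne_zero (by exact_mod_cast h1)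
    · rintro ⟨g, hgT, hg⟩
      refine (H2' (s : ZMod p) 1 hs0 h10).1 ⟨g, ?_, (hstab g).mpr hgT⟩
      rw [ZMod.val_one, pow_one]
      exact hg
  · -- the sum formula
    intro χ hχ
    have hsmt1 : ∀ χ ∈ B, ∀ t : ℕ, ¬ p ∣ t →
        (χ : G → ℂ) (z ^ t) = ∑ᶠ c ∈ S,
          blockPart c (fun x : Subgroup.centralizer ((P : Subgroup G) : Set G) =>
            (χ : G → ℂ) (z ^ t * (x : G))) 1 := by
      intro χ hχ t ht
      have h1 := hsmt χ hχ t ht 1 h1reg
      rw [OneMemClass.coe_one, mul_one] at h1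
      exact h1
    have htrans1 : ∀ c ∈ S, ∃ k : (ZMod p)ˣ, ∀ χ ∈ B, ∀ (t : ZMod p),
        blockPart c (fun x : Subgroup.centralizer ((P : Subgroup G) : Set G) =>
          (χ : G → ℂ) (z ^ ((k : ZMod p) * t).val * (x : G))) 1 =
          D t χ * (θ : Subgroup.centralizer ((P : Subgroup G) : Set G) → ℂ) 1 := by
      intro c hc
      obtain ⟨g, -, k, hk⟩ := htrans c hc
      exact ⟨k, fun χ hχ t => hk χ hχ t 1 1 h1reg (by simp)⟩
    rw [Cfsg.Agent.Lib.Helper63.TGC.sum_of p P hP B θ z hz hz1 D S hsmt1 htrans1 χ hχ, hN2 χ,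
      hcard, ← hdeg]
    push_cast
    ring

end Main

end Cfsg.Agent.Lib.Helper33.TG
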