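import Cfsg.Agent.Lib.Helper22.TH1

/-!
# TG piece TRE: a trace identity on the lattice `latt c` (helper33)
-/

set_option autoImplicit false

namespace Cfsg.Agent.Lib.Helper33.TG

open Cfsg Cfsg.Agent.Lib.Helper22.TA Cfsg.Agent.Lib.Helper22.TB

/-- PIECE TRE -/
theorem trace_E {Γ : Type*} [Group Γ] [Fintype Γ] (S : Finset (IrrCharacter Γ)) (c : Γ → ℤ)
    (hc : ∀ g, (c g : ℂ) = ∑ ψ ∈ S, (ψ : Γ → ℂ) 1 * (ψ : Γ → ℂ) g⁻¹)
    (d : ℕ) (hd : ∀ ψ ∈ S, (ψ : Γ → ℂ) 1 = (d : ℂ))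
    (χT : Γ → ℂ)
    (hS : ∀ ψ ∈ S, ∃ k : ℕ, Nat.Coprime k (Nat.card Γ) ∧ ∀ g, (ψ : Γ → ℂ) g = χT (g ^ k))
    (p : ℕ) [Fact p.Prime] (zT : Γ) (hz : orderOf zT = p)
    (m : ℕ) (hm : 0 < m) (ω : ℂ) (hω : IsPrimitiveRoot ω m)
    (w : Γ) (hw : ∀ g, w * g = g * w)
    (hχw : ∀ (g : Γ) (j : ℕ), χT (g * w ^ j) = χT g * ω ^ j)
    {K : Type*} [Group K] [Fintype K] (ι : K →* Γ) (hι : Function.Injective ι)
    (hιz : ∀ y, ι y * zT = zT * ι y)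
    (F : K → ℂ) (b : K → ℕ → ℕ)
    (hb : ∀ (y : K) (k : ℕ), F ((y⁻¹) ^ k) = ∑ j ∈ Finset.range m, (b y j : ℂ) * (ω ^ j) ^ k)
    (n₀ : ℕ)
    (key : ∀ t ∈ Finset.Ico 1 p, (n₀ : ℂ) * ∑ y : K, χT (zT ^ t * ι y) * F y⁻¹ =
      (Nat.card K : ℂ) * χT (zT ^ t))
    (t : ℕ) (ht : t ∈ Finset.Ico 1 p) :
    LinearMap.trace ℤ ↥(latt c) ((lrep c zT ^ t) ∘ₗ
      ((n₀ : ℤ) • ∑ y : K, ∑ j ∈ Finset.range m, (b y j : ℤ) • lrep c (ι y * w ^ j))) =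
      (Nat.card K : ℤ) * LinearMap.trace ℤ ↥(latt c) (lrep c zT ^ t) := by
  classical
  have hp := (Fact.out : p.Prime)
  have hpΓ : p ∣ Nat.card Γ := hz ▸ orderOf_dvd_natCard zT
  have hKΓ : Nat.card K ∣ Nat.card Γ := Subgroup.card_dvd_of_injective ι hι
  rw [Finset.mem_Ico] at ht
  -- the operator
  have e1 : (lrep c zT ^ t) ∘ₗ
      ((n₀ : ℤ) • ∑ y : K, ∑ j ∈ Finset.range m, (b y j : ℤ) • lrep c (ι y * w ^ j)) =
      (n₀ : ℤ) • ∑ y : K, ∑ j ∈ Finset.range m,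
        (b y j : ℤ) • lrep c (zT ^ t * (ι y * w ^ j)) := by
    show (lrep c zT ^ t) * _ = _
    rw [mul_smul_comm, Finset.mul_sum]
    congr 1
    apply Finset.sum_congr rfl; intro y _
    rw [Finset.mul_sum]
    apply Finset.sum_congr rfl; intro j _
    rw [mul_smul_comm, ← map_pow, ← map_mul]
  -- per character
  have hψ : ∀ ψ ∈ S, (n₀ : ℂ) * ∑ y : K, ∑ j ∈ Finset.range m,
      (b y j : ℂ) * (ψ : Γ → ℂ) (zT ^ t * (ι y * w ^ j)) =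
      (Nat.card K : ℂ) * (ψ : Γ → ℂ) (zT ^ t) := by
    intro ψ hψS
    obtain ⟨k, hk, hψk⟩ := hS ψ hψS
    have hpk : ¬ p ∣ k := by
      intro h
      have := Nat.dvd_gcd h hpΓ
      rw [hk] at this
      exact hp.one_lt.ne' (Nat.dvd_one.1 this)
    have hKk : (Nat.card K).Coprime k := (Nat.Coprime.coprime_dvd_right hKΓ hk).symm
    -- the exponent t * k mod p
    have ht' : t * k % p ∈ Finset.Ico 1 p := by
      rw [Finset.mem_Ico]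
      refine ⟨?_, Nat.mod_lt _ hp.pos⟩
      by_contra h
      have h0 : t * k % p = 0 := by omega
      rcases (Nat.Prime.dvd_mul hp).1 (Nat.dvd_of_mod_eq_zero h0) with h | h
      · exact absurd (Nat.le_of_dvd (by omega) h) (by omega)
      · exact hpk h
    have hzpow : zT ^ (t * k % p) = zT ^ (t * k) := by
      rw [← hz, pow_mod_orderOf]
    have hterm : ∀ (y : K) (j : ℕ), (ψ : Γ → ℂ) (zT ^ t * (ι y * w ^ j)) =
        χT (zT ^ (t * k) * ι (y ^ k)) * (ω ^ j) ^ k := by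
      intro y j
      rw [hψk]
      have hc1 : Commute (ι y) (w ^ j) := (Commute.pow_left (show Commute w (ι y) from hw _) j).symm
      have hc2 : Commute (zT ^ t) (ι y * w ^ j) := by
        apply Commute.mul_right
        · exact (Commute.pow_right (show Commute (ι y) zT from hιz y) t).symm
        · exact (Commute.pow_left (show Commute w (zT ^ t) from hw _) j).symm
      have h1 : (zT ^ t * (ι y * w ^ j)) ^ k = zT ^ (t * k) * ι (y ^ k) * w ^ (j * k) := by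
        rw [hc2.mul_pow, hc1.mul_pow, ← pow_mul, ← pow_mul, ← map_pow, ← mul_assoc]
      rw [h1, hχw, pow_mul ω j k]
    have hsum : ∀ y : K, ∑ j ∈ Finset.range m,
        (b y j : ℂ) * (ψ : Γ → ℂ) (zT ^ t * (ι y * w ^ j)) =
        χT (zT ^ (t * k) * ι (y ^ k)) * F ((y ^ k)⁻¹) := by
      intro y
      rw [← inv_pow, hb y k, Finset.mul_sum]
      apply Finset.sum_congr rfl; intro j _
      rw [hterm y j]
      ring
    rw [Finset.sum_congr rfl (fun y _ => hsum y)]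
    have hbij : ∑ y : K, χT (zT ^ (t * k) * ι (y ^ k)) * F ((y ^ k)⁻¹) =
        ∑ y : K, χT (zT ^ (t * k) * ι y) * F y⁻¹ :=
      Fintype.sum_equiv (powCoprime hKk) _ (fun y => χT (zT ^ (t * k) * ι y) * F y⁻¹)
        (fun y => by rw [powCoprime_apply])
    rw [hbij, ← hzpow, key _ ht', hzpow, hψk, ← pow_mul]
  -- assemble
  apply Int.cast_injective (α := ℂ)
  rw [e1, map_smul, map_sum]
  have e2 : ∀ y : K, LinearMap.trace ℤ ↥(latt c)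
      (∑ j ∈ Finset.range m, (b y j : ℤ) • lrep c (zT ^ t * (ι y * w ^ j))) =
      ∑ j ∈ Finset.range m, (b y j : ℤ) * LinearMap.trace ℤ ↥(latt c)
        (lrep c (zT ^ t * (ι y * w ^ j))) := by
    intro y
    rw [map_sum]
    apply Finset.sum_congr rfl; intro j _
    rw [map_smul, smul_eq_mul]
  rw [Finset.sum_congr rfl (fun y _ => e2 y), smul_eq_mul]
  push_cast
  have e3 : ∀ (y : K) (j : ℕ), ((LinearMap.trace ℤ ↥(latt c)
      (lrep c (zT ^ t * (ι y * w ^ j))) : ℤ) : ℂ) =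
      ∑ ψ ∈ S, (ψ : Γ → ℂ) 1 * (ψ : Γ → ℂ) (zT ^ t * (ι y * w ^ j)) :=
    fun y j => Cfsg.Agent.Lib.Helper22.TH.trace_cast S c hc _
  have e4 : ((LinearMap.trace ℤ ↥(latt c) (lrep c zT ^ t) : ℤ) : ℂ) =
      ∑ ψ ∈ S, (ψ : Γ → ℂ) 1 * (ψ : Γ → ℂ) (zT ^ t) := by
    rw [← map_pow]
    exact Cfsg.Agent.Lib.Helper22.TH.trace_cast S c hc _
  rw [e4]
  simp only [e3]
  have step : ∀ f : K → ℕ → IrrCharacter Γ → ℂ,
      ∑ y : K, ∑ j ∈ Finset.range m, ∑ ψ ∈ S, f y j ψ =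
        ∑ ψ ∈ S, ∑ y : K, ∑ j ∈ Finset.range m, f y j ψ := by
    intro f
    calc ∑ y : K, ∑ j ∈ Finset.range m, ∑ ψ ∈ S, f y j ψ
        = ∑ y : K, ∑ ψ ∈ S, ∑ j ∈ Finset.range m, f y j ψ :=
          Finset.sum_congr rfl (fun y _ => Finset.sum_comm)
      _ = _ := Finset.sum_comm
  have a1 : ∀ (y : K) (j : ℕ), (b y j : ℂ) *
      ∑ ψ ∈ S, (ψ : Γ → ℂ) 1 * (ψ : Γ → ℂ) (zT ^ t * (ι y * w ^ j)) =
      ∑ ψ ∈ S, (ψ : Γ → ℂ) 1 * ((b y j : ℂ) * (ψ : Γ → ℂ) (zT ^ t * (ι y * w ^ j))) := by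
    intro y j
    rw [Finset.mul_sum]
    apply Finset.sum_congr rfl; intro ψ _
    ring
  simp only [a1]
  rw [step (fun y j ψ => (ψ : Γ → ℂ) 1 * ((b y j : ℂ) * (ψ : Γ → ℂ) (zT ^ t * (ι y * w ^ j)))),
    Finset.mul_sum, Finset.mul_sum]
  apply Finset.sum_congr rfl; intro ψ hψS
  have a2 : ∑ y : K, ∑ j ∈ Finset.range m,
      (ψ : Γ → ℂ) 1 * ((b y j : ℂ) * (ψ : Γ → ℂ) (zT ^ t * (ι y * w ^ j))) =
      (ψ : Γ → ℂ) 1 * ∑ y : K, ∑ j ∈ Finset.range m,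
        (b y j : ℂ) * (ψ : Γ → ℂ) (zT ^ t * (ι y * w ^ j)) := by
    rw [Finset.mul_sum]
    apply Finset.sum_congr rfl; intro y _
    rw [Finset.mul_sum]
  rw [a2, mul_left_comm, hψ ψ hψS]
  ring

end Cfsg.Agent.Lib.Helper33.TG
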