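import Mathlib

/-!
# Fourier analysis on `ZMod p` with a primitive `p`-th root of unity, `ω ^ (b * t).val` shape
(helper33)
-/

set_option autoImplicit false

namespace Cfsg.Agent.Lib.Helper33.TI

open scoped ComplexConjugate

variable (p : ℕ) [Fact p.Prime]

theorem pow_val_add (ω : ℂ) (hω : ω ^ p = 1) (a b : ZMod p) :
    ω ^ (a + b).val = ω ^ a.val * ω ^ b.val := by
  have : NeZero p := ⟨(Fact.out : p.Prime).ne_zero⟩
  rw [ZMod.val_add, ← pow_add]
  exact (pow_eq_pow_mod _ hω).symm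

theorem pow_val_zero (ω : ℂ) : ω ^ (0 : ZMod p).val = 1 := by
  rw [ZMod.val_zero, pow_zero]

theorem pow_val_neg (ω : ℂ) (hω : ω ^ p = 1) (a : ZMod p) :
    ω ^ (-a).val = (ω ^ a.val)⁻¹ := by
  have h := pow_val_add p ω hω a (-a)
  rw [add_neg_cancel, pow_val_zero] at h
  exact eq_inv_of_mul_eq_one_right h.symm

theorem conj_pow_val (ω : ℂ) (hω : ω ^ p = 1) (a : ZMod p) :
    conj (ω ^ a.val) = ω ^ (-a).val := by
  have hp := (Fact.out : p.Prime)
  rw [pow_val_neg p ω hω]
  have hn : ‖ω‖ = 1 := Complex.norm_eq_one_of_pow_eq_one hω hp.ne_zero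
  have hn' : ‖ω ^ a.val‖ = 1 := by rw [norm_pow, hn, one_pow]
  exact (Complex.inv_eq_conj hn').symm

/-- the basic character sum. -/
theorem sum_pow_val (ω : ℂ) (hω : IsPrimitiveRoot ω p) (k : ZMod p) :
    ∑ t : ZMod p, ω ^ (k * t).val = if k = 0 then (p : ℂ) else 0 := by
  have hp := (Fact.out : p.Prime)
  have : NeZero p := ⟨hp.ne_zero⟩
  by_cases hk : k = 0
  · rw [if_pos hk, hk]
    simp
  · rw [if_neg hk]
    have h1 : ∑ t : ZMod p, ω ^ (k * t).val = ∑ t : ZMod p, ω ^ t.val := by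
      have hu : IsUnit k := (isUnit_iff_ne_zero).mpr hk
      exact Equiv.sum_comp (Equiv.mulLeft₀ k hk) (fun t => ω ^ t.val)
    rw [h1]
    have h2 : ∑ t : ZMod p, ω ^ t.val = ∑ i ∈ Finset.range p, ω ^ i := by
      symm
      apply Finset.sum_bij (fun (i : ℕ) _ => (i : ZMod p))
      · intro i _; exact Finset.mem_univ _
      · intro i hi j hj h
        have hi' := Finset.mem_range.mp hi
        have hj' := Finset.mem_range.mp hj
        have := congrArg ZMod.val h
        rwa [ZMod.val_natCast, ZMod.val_natCast, Nat.mod_eq_of_lt hi', Nat.mod_eq_of_lt hj'] at this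
      · intro t _
        exact ⟨t.val, Finset.mem_range.mpr (ZMod.val_lt t), by simp⟩
      · intro i hi
        rw [ZMod.val_natCast, Nat.mod_eq_of_lt (Finset.mem_range.mp hi)]
    rw [h2]
    exact hω.geom_sum_eq_zero hp.one_lt

/-- Fourier inversion on `ZMod p`. -/
theorem fourier_inv (ω : ℂ) (hω : IsPrimitiveRoot ω p) (g : ZMod p → ℂ) (t : ZMod p) :
    ∑ b : ZMod p, ω ^ (b * t).val *
      ((p : ℂ)⁻¹ * ∑ t' : ZMod p, conj (ω ^ (b * t').val) * g t') = g t := by
  have hp := (Fact.out : p.Prime)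
  have hω1 : ω ^ p = 1 := hω.pow_eq_one
  have hp0 : (p : ℂ) ≠ 0 := by exact_mod_cast hp.ne_zero
  have h1 : ∀ b : ZMod p, ω ^ (b * t).val *
      ((p : ℂ)⁻¹ * ∑ t' : ZMod p, conj (ω ^ (b * t').val) * g t') =
      ∑ t' : ZMod p, (p : ℂ)⁻¹ * g t' * ω ^ ((t - t') * b).val := by
    intro b
    rw [Finset.mul_sum, Finset.mul_sum]
    apply Finset.sum_congr rfl
    intro t' _
    rw [conj_pow_val p ω hω1]
    have : ω ^ ((t - t') * b).val = ω ^ (b * t).val * ω ^ (-(b * t')).val := by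
      rw [← pow_val_add p ω hω1]
      congr 2
      ring
    rw [this]
    ring
  rw [Finset.sum_congr rfl (fun b _ => h1 b), Finset.sum_comm]
  have h2 : ∀ t' : ZMod p, ∑ b : ZMod p, (p : ℂ)⁻¹ * g t' * ω ^ ((t - t') * b).val =
      if t' = t then g t else 0 := by
    intro t'
    rw [← Finset.mul_sum, sum_pow_val p ω hω]
    by_cases h : t' = t
    · rw [if_pos h, if_pos (by rw [h, sub_self]), h]
      field_simp
    · rw [if_neg h, if_neg (by rw [sub_eq_zero]; exact fun h' => h h'.symm), mul_zero]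
  rw [Finset.sum_congr rfl (fun t' _ => h2 t')]
  simp

/-- a function on `ZMod p` whose nonzero Fourier values vanish is constant: if
`∑_b ω^(b t) c_b = 0` for all `t ≠ 0` then all `c_b` are equal. -/
theorem const_of_fourier_zero (ω : ℂ) (hω : IsPrimitiveRoot ω p) (c : ZMod p → ℂ)
    (h : ∀ t : ZMod p, t ≠ 0 → ∑ b : ZMod p, ω ^ (b * t).val * c b = 0) (b b' : ZMod p) :
    c b = c b' := by
  have hp := (Fact.out : p.Prime)
  have hω1 : ω ^ p = 1 := hω.pow_eq_one
  have hp0 : (p : ℂ) ≠ 0 := by exact_mod_cast hp.ne_zero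
  -- `p * c b = ∑_t conj(ω^(b t)) ∑_{b'} ω^(b' t) c b'`
  have key : ∀ b : ZMod p, (p : ℂ) * c b = ∑ b' : ZMod p, c b' := by
    intro b
    have h1 : ∑ t : ZMod p, ω ^ (-(b * t)).val * ∑ b' : ZMod p, ω ^ (b' * t).val * c b' =
        ∑ b' : ZMod p, c b' := by
      rw [Finset.sum_eq_single (0 : ZMod p)]
      · simp
      · intro t _ ht
        rw [h t ht, mul_zero]
      · intro h0; exact absurd (Finset.mem_univ _) h0
    have h2 : ∑ t : ZMod p, ω ^ (-(b * t)).val * ∑ b' : ZMod p, ω ^ (b' * t).val * c b' =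
        ∑ b' : ZMod p, c b' * ∑ t : ZMod p, ω ^ ((b' - b) * t).val := by
      simp_rw [Finset.mul_sum]
      rw [Finset.sum_comm]
      apply Finset.sum_congr rfl
      intro b' _
      apply Finset.sum_congr rfl
      intro t _
      have : ω ^ ((b' - b) * t).val = ω ^ (-(b * t)).val * ω ^ (b' * t).val := by
        rw [← pow_val_add p ω hω1]
        congr 2
        ring
      rw [this]; ring
    rw [h2] at h1
    rw [← h1]
    rw [Finset.sum_eq_single b]
    · rw [sub_self, sum_pow_val p ω hω, if_pos rfl, mul_comm]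
    · intro b' _ hb'
      rw [sum_pow_val p ω hω, if_neg (sub_ne_zero.mpr hb'), mul_zero]
    · intro h0; exact absurd (Finset.mem_univ _) h0
  have := (key b).trans (key b').symm
  exact mul_left_cancel₀ hp0 this

end Cfsg.Agent.Lib.Helper33.TI
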