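import Mathlib
import Cfsg.Agent.Lib.Helper22.BFDefs
import Cfsg.Agent.Lib.Helper22.BFCG2
import Cfsg.Agent.Lib.Helper80.DGSETUP
import Cfsg.Agent.Lib.Helper79.Blk2
import Cfsg.Agent.Lib.Helper82.PQ
import Cfsg.Agent.Lib.Helper82.CharCore
import Cfsg.Agent.Lib.Helper92.DOCL5

/-!
# S4503 project, piece LOCASM (helper33, backup): the local structure `Loc` from the block of `φ`
-/

set_option autoImplicit false
set_option linter.style.haveILetI false
set_option maxHeartbeats 1600000

namespace Cfsg.Agent.Lib.Helper33.BFT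

open Cfsg Cfsg.Agent.Lib.Helper22.BFD
open scoped ComplexConjugate

universe u

variable {G : Type u} [Group G] [Fintype G]

/-- PIECE LOCASM -/
theorem loc_exists (p : ℕ) [Fact p.Prime] (hdiv : p ∣ Nat.card G) (hsq : ¬ p ^ 2 ∣ Nat.card G)
    (ζ : ℂ) (hζ : IsPrimitiveRoot ζ p)
    (hvinv : ∀ (v : ZMod p → IrrCharacter G → ℤ) (D : ZMod p → IrrCharacter G → ℂ),
      (∀ t θ, D t θ = ∑ a : ZMod p, (v a θ : ℂ) * ζ ^ (a * t).val) → ∀ s : (ZMod p)ˣ,
      D (s : ZMod p) = D 1 → ∀ a θ, v ((s : ZMod p) * a) θ = v a θ)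
    (htheta : ∀ (P : Sylow p G), Nat.card P = p →
      ∀ θ : IrrCharacter (Subgroup.centralizer ((P : Subgroup G) : Set G)),
      (∀ x : Subgroup.centralizer ((P : Subgroup G) : Set G),
        (x : G) ∈ (P : Subgroup G) → θ.1 x = θ.1 1) →
      ∀ T : Subgroup G,
      (∀ g : G, g ∈ T ↔ (g ∈ Subgroup.normalizer ((P : Subgroup G) : Set G) ∧
        ∀ c c' : Subgroup.centralizer ((P : Subgroup G) : Set G), (c' : G) = g * c * g⁻¹ →
          θ.1 c' = θ.1 c)) →
      ∀ z : G, z ∈ (P : Subgroup G) → z ≠ 1 →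
      (∑ s ∈ Kf p z, extendByZero (Subgroup.centralizer ((P : Subgroup G) : Set G)) θ.1 s = 0) ∨
      ((∀ s ∈ Kf p z,
          extendByZero (Subgroup.centralizer ((P : Subgroup G) : Set G)) θ.1 s = 1) ∧
        T = Subgroup.normalizer ((P : Subgroup G) : Set G)))
    (φ : IrrCharacter G) (hφ : ¬ p ∣ charDegree φ.1) :
    ∃ P : Sylow p G, ∀ z ∈ (P : Subgroup G), z ≠ 1 → Loc p ζ z φ.1 := by
  classical
  have hp : p.Prime := Fact.out
  haveI : NeZero p := ⟨hp.ne_zero⟩
  obtain ⟨M, hM⟩ := Cfsg.Agent.Lib.Helper82.exists_isPModular p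
  have hB : IsPBlock M (blockOf M φ.1) := Cfsg.Agent.Lib.Helper79.isPBlock_blockOf φ
  have hφB : φ ∈ blockOf M φ.1 := Cfsg.Agent.Lib.Helper79.mem_blockOf_self hM φ
  have hne : Nat.card G ≠ 0 := Nat.card_pos.ne'
  have hfac : (Nat.card G).factorization p = 1 := by
    have h1 : 1 ≤ (Nat.card G).factorization p :=
      (hp.dvd_iff_one_le_factorization hne).mp hdiv
    have h2 : ¬ 2 ≤ (Nat.card G).factorization p :=
      fun h => hsq ((hp.pow_dvd_iff_le_factorization hne).mpr h)
    omega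
  have hd : 0 < blockDefect p (blockOf M φ.1) := by
    unfold blockDefect
    rw [hfac]
    have h0 : (charDegree φ.1).factorization p = 0 := Nat.factorization_eq_zero_of_not_dvd hφ
    have h1 : sInf ((fun χ : IrrCharacter G => (charDegree (χ : G → ℂ)).factorization p) ''
        blockOf M φ.1) ≤ 0 := by
      rw [← h0]
      exact Nat.sInf_le ⟨φ, hφB, rfl⟩
    omega
  obtain ⟨P, b, θ, T, hP, hBP, hind, hθ, hθP, hT⟩ :=
    Cfsg.Agent.Lib.Helper80.DG.exists_setup p M hM hdiv hsq _ hB hd
  refine ⟨P, fun z hz hz1 => ?_⟩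
  haveI : Finite (IrrCharacter G) := Cfsg.Agent.Lib.Helper82.finite_irrCharacter G
  letI : Fintype (IrrCharacter G) := Fintype.ofFinite _
  obtain ⟨X, Y, hBXY, hdisj, hX, hY, hediv, he1, εX, ε, D, κ, v, hXp, hε, hYdeg, hYreg, hYsum,
    hκ, hD, Hsmt, hgal, Hfus, hsumY⟩ :=
    Cfsg.Agent.Lib.Helper22.BFT.core_gen2 Cfsg.Agent.Lib.Helper22.BFT.tg_stmt p M hM P hP _ hB hBP
      b hind θ hθ hθP T hT _ rfl z hz hz1 ζ hζ
  have hPz : (P : Subgroup G) = Subgroup.zpowers z :=
    Cfsg.Agent.Lib.Helper92.DO.cf_zpowers p P hP z hz hz1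
  have hCmem : ∀ x : G, x ∈ Subgroup.centralizer ((P : Subgroup G) : Set G) ↔ x * z = z * x := by
    intro x
    rw [Subgroup.mem_centralizer_iff]
    constructor
    · intro h; exact (h z hz).symm
    · intro h y hy
      rw [hPz] at hy
      obtain ⟨k, rfl⟩ := Subgroup.mem_zpowers_iff.mp hy
      exact ((show Commute x z from h).zpow_right k).eq.symm
  have hCeq : Subgroup.centralizer ((P : Subgroup G) : Set G) =
      Subgroup.centralizer ({z} : Set G) := by
    ext x
    rw [hCmem, Subgroup.mem_centralizer_iff]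
    constructor
    · intro h y hy
      rw [Set.mem_singleton_iff] at hy
      rw [hy]; exact h.symm
    · intro h
      exact (h z rfl).symm
  have hNeq : Subgroup.normalizer ((P : Subgroup G) : Set G) =
      Subgroup.normalizer ((Subgroup.zpowers z : Subgroup G) : Set G) := by
    rw [hPz]
  have hTN : T ≤ Subgroup.normalizer ((P : Subgroup G) : Set G) := fun g hg => ((hT g).mp hg).1
  have hCT : Subgroup.centralizer ((P : Subgroup G) : Set G) ≤ T := by
    intro g hg
    rw [hT]
    refine ⟨Subgroup.centralizer_le_normalizer _ hg, ?_⟩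
    intro c c' hcc
    have h1 : c' = (⟨g, hg⟩ : Subgroup.centralizer ((P : Subgroup G) : Set G)) * c *
        (⟨g, hg⟩ : Subgroup.centralizer ((P : Subgroup G) : Set G))⁻¹ := by
      apply Subtype.ext
      rw [hcc]; rfl
    rw [h1]
    exact Cfsg.Agent.Lib.Helper82.irr_isClassFunction θ c _
  have hκ0 : ∀ n ∈ Subgroup.normalizer ((P : Subgroup G) : Set G), κ n ≠ 0 :=
    fun n hn => Cfsg.Agent.Lib.Helper79.DG.kappa_ne_zero p z hz1 n _ (hκ n hn)
  obtain ⟨hdeg1, hdeg0⟩ := Cfsg.Agent.Lib.Helper82.irr_charDegree θ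
  -- membership in `Kf`
  have hKf : ∀ s : G, s ∈ Kf p z ↔ (s * z = z * s ∧ ¬ p ∣ orderOf s) := by
    intro s
    unfold Kf
    rw [Finset.mem_filter]
    simp
  refine ⟨T, extendByZero (Subgroup.centralizer ((P : Subgroup G) : Set G)) θ.1,
    fun t => D t φ, κ, fun a => v a φ,
    charDegree (θ : Subgroup.centralizer ((P : Subgroup G) : Set G) → ℂ),
    (Subgroup.centralizer ((P : Subgroup G) : Set G)).relIndex T, ?_, ?_, ?_, ?_, ?_, ?_, ?_, ?_,
    ?_, ?_, ?_, ?_⟩
  · rw [← hCeq]; exact hCT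
  · rw [← hNeq]; exact hTN
  · intro n hn
    rw [← hNeq] at hn
    exact hκ n hn
  · intro t
    exact hD t φ
  · intro τ hτ a
    have hτN := hTN hτ
    have hu : IsUnit (κ τ) := isUnit_iff_ne_zero.mpr (hκ0 τ hτN)
    have h1 : D ((hu.unit : (ZMod p)ˣ) : ZMod p) = D 1 := by
      rw [Hfus]
      refine ⟨τ⁻¹, T.inv_mem hτ, ?_⟩
      rw [inv_inv, IsUnit.unit_spec]
      exact hκ τ hτN
    have := hvinv v D hD hu.unit h1 a φ
    rwa [IsUnit.unit_spec] at this
  · exact Nat.one_le_iff_ne_zero.mpr hdeg0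
  · have h1 : extendByZero (Subgroup.centralizer ((P : Subgroup G) : Set G)) θ.1 1 =
        θ.1 (1 : Subgroup.centralizer ((P : Subgroup G) : Set G)) := by
      unfold extendByZero
      exact Subtype.val_injective.extend_apply θ.1 0
        (1 : Subgroup.centralizer ((P : Subgroup G) : Set G))
    rw [h1, ← hdeg1]
  · rw [hCeq]
  · intro t ht s hs
    rw [hKf] at hs
    have hsC : s ∈ Subgroup.centralizer ((P : Subgroup G) : Set G) := (hCmem s).mpr hs.1
    have h1 := Hsmt φ hφB t ht ⟨s, hsC⟩ (by rw [Subgroup.orderOf_mk]; exact hs.2)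
    simp only at h1
    rw [h1]
    apply Finset.sum_congr rfl
    intro n _
    rw [hNeq]
  · have := htheta P hP θ hθP T hT z hz hz1
    rw [hNeq] at this
    exact this
  · intro n hn
    rw [← hNeq] at hn
    -- conjugation by `n⁻¹` permutes `Kf p z`
    apply Finset.sum_bij (fun (s : G) _ => n⁻¹ * s * n)
    · intro s hs
      rw [hKf] at hs ⊢
      constructor
      · -- `n z n⁻¹` is a power of `z`
        have h1 : n * z * n⁻¹ ∈ Subgroup.zpowers z := by
          rw [← hPz]
          exact (Subgroup.mem_normalizer_iff.mp hn z).mp hz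
        obtain ⟨k, hk⟩ := Subgroup.mem_zpowers_iff.mp h1
        have h2 : Commute s (n * z * n⁻¹) := by
          rw [← hk]
          exact (show Commute s z from hs.1).zpow_right k
        have e1 : n⁻¹ * s * n * z = n⁻¹ * (s * (n * z * n⁻¹)) * n := by group
        have e2 : z * (n⁻¹ * s * n) = n⁻¹ * ((n * z * n⁻¹) * s) * n := by group
        rw [e1, e2, h2.eq]
      · have : orderOf (n⁻¹ * s * n) = orderOf s := by
          have := Cfsg.Agent.Lib.Helper22.orderOf_conj_eq n⁻¹ s
          rwa [inv_inv] at this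
        rw [this]; exact hs.2
    · intro s _ s' _ h
      have : n * (n⁻¹ * s * n) * n⁻¹ = n * (n⁻¹ * s' * n) * n⁻¹ := by rw [h]
      simpa [mul_assoc] using this
    · intro s hs
      refine ⟨n * s * n⁻¹, ?_, by group⟩
      rw [hKf] at hs ⊢
      constructor
      · have h1 : n⁻¹ * z * n ∈ Subgroup.zpowers z := by
          rw [← hPz]
          have := (Subgroup.mem_normalizer_iff.mp (Subgroup.inv_mem _ hn) z).mp hz
          rwa [inv_inv] at this
        obtain ⟨k, hk⟩ := Subgroup.mem_zpowers_iff.mp h1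
        have h2 : Commute s (n⁻¹ * z * n) := by
          rw [← hk]
          exact (show Commute s z from hs.1).zpow_right k
        have e1 : n * s * n⁻¹ * z = n * (s * (n⁻¹ * z * n)) * n⁻¹ := by group
        have e2 : z * (n * s * n⁻¹) = n * ((n⁻¹ * z * n) * s) * n⁻¹ := by group
        rw [e1, e2, h2.eq]
      · rw [Cfsg.Agent.Lib.Helper22.orderOf_conj_eq n s]; exact hs.2
    · intro s _
      rfl
  · -- the alternatives for `D`
    rw [hBXY] at hφB
    rcases hφB with hφX | hφY
    · obtain ⟨hε1, -, hDX⟩ := hXp φ hφX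
      rcases hε1 with h | h
      · left
        intro t ht
        show D t φ = 1
        rw [hDX t ht, h]; norm_num
      · right; left
        intro t ht
        show D t φ = -1
        rw [hDX t ht, h]; norm_num
    · have h1 := hsumY φ hφY
      rcases hε with h | h
      · right; right; right
        show ∑ t ∈ Finset.univ.filter (fun t : ZMod p => t ≠ 0), D t φ = _
        rw [h1, h]; norm_num
      · right; right; left
        show ∑ t ∈ Finset.univ.filter (fun t : ZMod p => t ≠ 0), D t φ = _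
        rw [h1, h]; norm_num

end Cfsg.Agent.Lib.Helper33.BFT
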