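import Mathlib
import Cfsg.Agent.Lib.Helper22.BFDefs

/-!
# S4503 project (helper22), piece STRB (helper33, backup): `Loc` gives the structure `Str`
-/

set_option autoImplicit false
set_option linter.style.haveILetI false
set_option maxHeartbeats 800000

namespace Cfsg.Agent.Lib.Helper33.BFT

open Cfsg Cfsg.Agent.Lib.Helper22.BFD
open scoped ComplexConjugate

universe u

variable {G : Type u} [Group G] [Fintype G]

open scoped Classical in
/-- a function on `N` which is constant on the left cosets of `T ≤ N` has sum divisible by `|T|`. -/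
theorem strb_sum_coset (T N : Subgroup G) (hTN : T ≤ N) (g : G → ℤ)
    (hg : ∀ n ∈ N, ∀ τ ∈ T, g (n * τ) = g n) :
    ∃ w : ℤ, ∑ n : G, (if n ∈ N then g n else 0) = (Nat.card T : ℤ) * w := by
  obtain ⟨S, hS, -⟩ := Subgroup.exists_isComplement_left (T.subgroupOf N) (1 : N)
  letI : Fintype S := Fintype.ofFinite S
  letI : Fintype (T.subgroupOf N) := Fintype.ofFinite _
  refine ⟨∑ s : S, g ((s : N) : G), ?_⟩
  have h1 : ∑ n : G, (if n ∈ N then g n else 0) = ∑ n : N, g (n : G) := by
    rw [← Finset.sum_filter]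
    exact Finset.sum_subtype (Finset.univ.filter (fun n => n ∈ N)) (by simp) g
  rw [h1]
  have h2 : ∑ n : N, g (n : G) =
      ∑ x : S × (T.subgroupOf N), g (((x.1 : N) * (x.2 : N) : N) : G) :=
    (Equiv.sum_comp (Equiv.ofBijective _ hS) (fun n : N => g (n : G))).symm
  rw [h2, Fintype.sum_prod_type]
  have h3 : ∀ s : S, ∑ h : T.subgroupOf N, g (((s : N) * (h : N) : N) : G) =
      (Nat.card T : ℤ) * g ((s : N) : G) := by
    intro s
    have h4 : ∀ h : T.subgroupOf N, g (((s : N) * (h : N) : N) : G) = g ((s : N) : G) := by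
      intro h
      have hh : ((h : N) : G) ∈ T := Subgroup.mem_subgroupOf.mp h.2
      rw [Subgroup.coe_mul]
      exact hg _ (s : N).2 _ hh
    rw [Finset.sum_congr rfl (fun h _ => h4 h), Finset.sum_const, Finset.card_univ, nsmul_eq_mul,
      ← Nat.card_eq_fintype_card, Nat.card_congr (Subgroup.subgroupOfEquivOfLe hTN).toEquiv]
  rw [Finset.sum_congr rfl (fun s _ => h3 s), Finset.mul_sum]

/-- PIECE STRB -/
theorem str_of_loc (p : ℕ) [Fact p.Prime] (ζ : ℂ) (hζ : IsPrimitiveRoot ζ p) (z : G)
    (hz : orderOf z = p)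
    (hfidx : (Subgroup.centralizer ({z} : Set G)).relIndex
      (Subgroup.normalizer ((Subgroup.zpowers z : Subgroup G) : Set G)) = (Ef p z).card)
    (χ : G → ℂ) (hloc : Loc p ζ z χ) : Str p ζ z χ := by
  classical
  obtain ⟨T, θ, D, κ, v, d, e, hCT, hTN, hκ, hD, hv, hd, hθ1, he, hφ, hθ, hθN, hDalt⟩ := hloc
  have hp : p.Prime := Fact.out
  haveI : NeZero p := ⟨hp.ne_zero⟩
  have hζ1 : ζ ^ p = 1 := hζ.pow_eq_one
  have hzp : z ^ p = 1 := by rw [← hz]; exact pow_orderOf_eq_one z
  have hz1 : z ≠ 1 := by
    intro h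
    rw [h, orderOf_one] at hz
    exact hp.one_lt.ne hz
  have hTpos : (Nat.card T : ℂ) ≠ 0 := by
    exact_mod_cast (Nat.card_pos (α := T)).ne'
  have hκ0 : ∀ n ∈ Subgroup.normalizer ((Subgroup.zpowers z : Subgroup G) : Set G),
      κ n ≠ 0 := by
    intro n hn h0
    have h1 := hκ n hn
    rw [h0, ZMod.val_zero, pow_zero] at h1
    apply hz1
    have h2 : z = n * (n⁻¹ * z * n) * n⁻¹ := by group
    rw [h2, h1]; group
  have hinj : ∀ a b : ZMod p, z ^ a.val = z ^ b.val → a = b := by
    intro a b h
    have := (pow_eq_pow_iff_modEq (x := z)).mp h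
    rw [hz] at this
    have a1 := ZMod.val_lt a
    have a2 := ZMod.val_lt b
    unfold Nat.ModEq at this
    rw [Nat.mod_eq_of_lt a1, Nat.mod_eq_of_lt a2] at this
    exact ZMod.val_injective p this
  -- `κ` is multiplicative on `N`
  have hκmul : ∀ n ∈ Subgroup.normalizer ((Subgroup.zpowers z : Subgroup G) : Set G),
      ∀ m ∈ Subgroup.normalizer ((Subgroup.zpowers z : Subgroup G) : Set G),
      κ (n * m) = κ n * κ m := by
    intro n hn m hm
    have h1 := hκ (n * m) (Subgroup.mul_mem _ hn hm)
    have h2 : (n * m)⁻¹ * z * (n * m) = m⁻¹ * (n⁻¹ * z * n) * m := by group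
    rw [h2, hκ n hn] at h1
    have h3 : m⁻¹ * z ^ (κ n).val * m = (m⁻¹ * z * m) ^ (κ n).val := by
      have := conj_pow (a := m⁻¹) (b := z) (i := (κ n).val)
      rw [inv_inv] at this
      exact this.symm
    rw [h3, hκ m hm, ← pow_mul] at h1
    apply hinj
    rw [← h1, mul_comm (κ n) (κ m), ZMod.val_mul]
    exact pow_eq_pow_mod _ hzp
  have h1K : (1 : G) ∈ Kf p z := by
    unfold Kf
    simp only [Finset.mem_filter, Finset.mem_univ, true_and, one_mul, mul_one]
    rw [orderOf_one]
    exact hp.not_dvd_one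
  -- the coset sums
  have hw : ∀ u : ZMod p, ∃ w : ℤ,
      ∑ n : G, (if n ∈ Subgroup.normalizer ((Subgroup.zpowers z : Subgroup G) : Set G)
        then v (u * (κ n)⁻¹) else 0) = (Nat.card T : ℤ) * w := by
    intro u
    apply strb_sum_coset T _ hTN
    intro n hn τ hτ
    rw [hκmul n hn τ (hTN hτ)]
    have h1 := hv τ hτ (u * (κ n * κ τ)⁻¹)
    rw [← h1]
    congr 1
    have := hκ0 τ (hTN hτ)
    have := hκ0 n hn
    field_simp
  choose w hw using hw
  -- the value of `D (κ n * t)`
  have hDn : ∀ n ∈ Subgroup.normalizer ((Subgroup.zpowers z : Subgroup G) : Set G),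
      ∀ t : ZMod p, D (κ n * t) = ∑ u : ZMod p, (v (u * (κ n)⁻¹) : ℂ) * ζ ^ (u * t).val := by
    intro n hn t
    rw [hD]
    have hk := hκ0 n hn
    rw [← Equiv.sum_comp (Equiv.mulRight₀ (κ n)⁻¹ (inv_ne_zero hk))
      (fun a => (v a : ℂ) * ζ ^ (a * (κ n * t)).val)]
    apply Finset.sum_congr rfl
    intro u _
    have e0 : (Equiv.mulRight₀ (κ n)⁻¹ (inv_ne_zero hk)) u = u * (κ n)⁻¹ := rfl
    rw [e0]
    have : u * (κ n)⁻¹ * (κ n * t) = u * t := by
      field_simp
    rw [this]
  have hχ : ∀ t : ZMod p, t ≠ 0 → (Nat.card T : ℂ) * χ (z ^ t.val) =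
      (d : ℂ) * ∑ n : G, (if n ∈ Subgroup.normalizer
        ((Subgroup.zpowers z : Subgroup G) : Set G) then D (κ n * t) else 0) := by
    intro t ht
    have h1 := hφ t ht 1 h1K
    rw [mul_one] at h1
    rw [h1, Finset.mul_sum]
    apply Finset.sum_congr rfl
    intro n _
    by_cases hn : n ∈ Subgroup.normalizer ((Subgroup.zpowers z : Subgroup G) : Set G)
    · rw [if_pos hn, if_pos hn]
      have : n⁻¹ * 1 * n = 1 := by group
      rw [this, hθ1]; ring
    · rw [if_neg hn, if_neg hn, mul_zero]
  have hrel : T.relIndex (Subgroup.normalizer ((Subgroup.zpowers z : Subgroup G) : Set G)) * e =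
      (Ef p z).card := by
    rw [he, mul_comm, Subgroup.relIndex_mul_relIndex _ _ _ hCT hTN, hfidx]
  have hcardN : Nat.card (Subgroup.normalizer ((Subgroup.zpowers z : Subgroup G) : Set G)) =
      Nat.card T * T.relIndex (Subgroup.normalizer ((Subgroup.zpowers z : Subgroup G) : Set G)) := by
    have h1 := Subgroup.card_mul_index (T.subgroupOf
      (Subgroup.normalizer ((Subgroup.zpowers z : Subgroup G) : Set G)))
    rw [Nat.card_congr (Subgroup.subgroupOfEquivOfLe hTN).toEquiv] at h1
    exact h1.symm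
  refine ⟨d, T.relIndex (Subgroup.normalizer ((Subgroup.zpowers z : Subgroup G) : Set G)), e, w,
    hd, hrel, ?_, ?_⟩
  · intro t ht
    apply mul_left_cancel₀ hTpos
    rw [hχ t ht]
    have h2 : ∑ n : G, (if n ∈ Subgroup.normalizer
        ((Subgroup.zpowers z : Subgroup G) : Set G) then D (κ n * t) else 0) =
        ∑ u : ZMod p, ((∑ n : G, (if n ∈ Subgroup.normalizer
          ((Subgroup.zpowers z : Subgroup G) : Set G) then v (u * (κ n)⁻¹) else 0) : ℤ) : ℂ) *
            ζ ^ (u * t).val := by
      have hR : ∀ u : ZMod p, ((∑ n : G, (if n ∈ Subgroup.normalizer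
          ((Subgroup.zpowers z : Subgroup G) : Set G) then v (u * (κ n)⁻¹) else 0) : ℤ) : ℂ) *
            ζ ^ (u * t).val =
          ∑ n : G, (if n ∈ Subgroup.normalizer ((Subgroup.zpowers z : Subgroup G) : Set G)
            then (v (u * (κ n)⁻¹) : ℂ) * ζ ^ (u * t).val else 0) := by
        intro u
        rw [Int.cast_sum, Finset.sum_mul]
        apply Finset.sum_congr rfl
        intro n _
        by_cases hn : n ∈ Subgroup.normalizer ((Subgroup.zpowers z : Subgroup G) : Set G)
        · rw [if_pos hn, if_pos hn]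
        · rw [if_neg hn, if_neg hn, Int.cast_zero, zero_mul]
      rw [Finset.sum_congr rfl (fun u _ => hR u), Finset.sum_comm]
      apply Finset.sum_congr rfl
      intro n _
      by_cases hn : n ∈ Subgroup.normalizer ((Subgroup.zpowers z : Subgroup G) : Set G)
      · rw [if_pos hn, hDn n hn t]
        apply Finset.sum_congr rfl
        intro u _
        rw [if_pos hn]
      · rw [if_neg hn]
        symm
        apply Finset.sum_eq_zero
        intro u _
        rw [if_neg hn]
    rw [h2]
    simp only [hw, Int.cast_mul, Int.cast_natCast]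
    rw [Finset.mul_sum, Finset.mul_sum, Finset.mul_sum]
    apply Finset.sum_congr rfl
    intro u _
    ring
  · -- the sum over the powers of `z`
    have hsP : sP p z χ = χ 1 + ∑ t ∈ Finset.univ.filter (fun t : ZMod p => t ≠ 0),
        χ (z ^ t.val) := by
      unfold sP
      rw [← Finset.sum_filter_add_sum_filter_not Finset.univ (fun t : ZMod p => t = 0)]
      congr 1
      rw [Finset.filter_eq' Finset.univ (0 : ZMod p), if_pos (Finset.mem_univ _),
        Finset.sum_singleton, ZMod.val_zero, pow_zero]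
    -- `|T| ∑_{t ≠ 0} χ(z^t) = d |N| S_D`
    have hkey : (Nat.card T : ℂ) * ∑ t ∈ Finset.univ.filter (fun t : ZMod p => t ≠ 0),
        χ (z ^ t.val) = (d : ℂ) *
          ((Nat.card (Subgroup.normalizer ((Subgroup.zpowers z : Subgroup G) : Set G)) : ℂ) *
            ∑ t ∈ Finset.univ.filter (fun t : ZMod p => t ≠ 0), D t) := by
      rw [Finset.mul_sum]
      rw [Finset.sum_congr rfl (fun t ht => hχ t (Finset.mem_filter.mp ht).2)]
      rw [← Finset.mul_sum, Finset.sum_comm]
      congr 1
      have h3 : ∀ n : G, ∑ t ∈ Finset.univ.filter (fun t : ZMod p => t ≠ 0),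
          (if n ∈ Subgroup.normalizer ((Subgroup.zpowers z : Subgroup G) : Set G)
            then D (κ n * t) else 0) =
          if n ∈ Subgroup.normalizer ((Subgroup.zpowers z : Subgroup G) : Set G) then
            ∑ t ∈ Finset.univ.filter (fun t : ZMod p => t ≠ 0), D t else 0 := by
        intro n
        by_cases hn : n ∈ Subgroup.normalizer ((Subgroup.zpowers z : Subgroup G) : Set G)
        · simp only [if_pos hn]
          have hk := hκ0 n hn
          apply Finset.sum_bij (fun (t : ZMod p) _ => κ n * t)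
          · intro t ht
            rw [Finset.mem_filter] at ht ⊢
            exact ⟨Finset.mem_univ _, mul_ne_zero hk ht.2⟩
          · intro a _ b _ h
            exact mul_left_cancel₀ hk h
          · intro t ht
            rw [Finset.mem_filter] at ht
            refine ⟨(κ n)⁻¹ * t, ?_, ?_⟩
            · rw [Finset.mem_filter]
              exact ⟨Finset.mem_univ _, mul_ne_zero (inv_ne_zero hk) ht.2⟩
            · field_simp
          · intro t _
            rfl
        · simp only [if_neg hn, Finset.sum_const_zero]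
      rw [Finset.sum_congr rfl (fun n _ => h3 n), ← Finset.sum_filter, Finset.sum_const,
        nsmul_eq_mul, Nat.card_eq_fintype_card, Fintype.card_subtype]
    have hsum : ∑ t ∈ Finset.univ.filter (fun t : ZMod p => t ≠ 0), χ (z ^ t.val) =
        ((d * T.relIndex (Subgroup.normalizer ((Subgroup.zpowers z : Subgroup G) : Set G)) : ℕ) : ℂ) *
          ∑ t ∈ Finset.univ.filter (fun t : ZMod p => t ≠ 0), D t := by
      apply mul_left_cancel₀ hTpos
      rw [hkey, hcardN]
      push_cast
      ring
    have hcardnz : ((Finset.univ.filter (fun t : ZMod p => t ≠ 0)).card : ℂ) = ((p - 1 : ℕ) : ℂ) := by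
      congr 1
      rw [Finset.filter_ne' Finset.univ (0 : ZMod p), Finset.card_erase_of_mem (Finset.mem_univ _),
        Finset.card_univ, ZMod.card]
    rw [hsP, hsum]
    rcases hDalt with h | h | h | h
    · left
      rw [Finset.sum_congr rfl (fun t ht => h t (Finset.mem_filter.mp ht).2), Finset.sum_const,
        nsmul_eq_mul, mul_one, hcardnz]
      push_cast
      ring
    · right; left
      rw [Finset.sum_congr rfl (fun t ht => h t (Finset.mem_filter.mp ht).2), Finset.sum_const,
        nsmul_eq_mul, hcardnz]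
      push_cast
      ring
    · right; right; left
      rw [h]
      push_cast
      ring
    · right; right; right
      rw [h]
      push_cast
      ring

end Cfsg.Agent.Lib.Helper33.BFT
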