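import Mathlib
import Cfsg.Prelude.Def_GeometricClasses
import Cfsg.Prelude.Def_ClassicalGeometry
import Cfsg.Agent.Lib.Helper98.F75Defs

/-!
S5975, piece F75-BL (helper33 for helper98): existence of the `L`-bilinear alternating form `B`
with `φ ∘ B = sympForm`, for any nonzero functional `φ`.
-/

set_option autoImplicit false

namespace Cfsg.Agent.Lib.Helper98.F75

open Matrix

/-- the functional `c ↦ f(ρ c u, v)` -/
noncomputable def blPsi {F : Type*} [Field F] {d : ℕ} {L : Type*} [Field L] [Algebra F L]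
    (ρ : L →ₐ[F] Matrix (Fin d ⊕ Fin d) (Fin d ⊕ Fin d) F) (u v : Fin d ⊕ Fin d → F) :
    L →ₗ[F] F where
  toFun c := Cfsg.sympForm d F (ρ c *ᵥ u) v
  map_add' c c' := by
    simp only [map_add, Matrix.add_mulVec, Cfsg.sympForm, add_dotProduct]
  map_smul' a c := by
    simp only [map_smul, Matrix.smul_mulVec, Cfsg.sympForm, smul_dotProduct, RingHom.id_apply]

theorem bl_riesz {F : Type*} [Field F] {L : Type*} [Field L] [Algebra F L] [Module.Finite F L]
    (φ : L →ₗ[F] F) (hφ : φ ≠ 0) :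
    (∀ b b' : L, (∀ c : L, φ (b * c) = φ (b' * c)) → b = b') ∧
      ∀ ψ : L →ₗ[F] F, ∃ b : L, ∀ c : L, φ (b * c) = ψ c := by
  have hinj : Function.Injective ((LinearMap.mul F L).compr₂ φ) := by
    rw [injective_iff_map_eq_zero]
    intro b hb
    by_contra hb0
    apply hφ
    ext x
    have h1 := LinearMap.congr_fun hb (b⁻¹ * x)
    simp only [LinearMap.compr₂_apply, LinearMap.mul_apply', LinearMap.zero_apply] at h1
    rw [← mul_assoc, mul_inv_cancel₀ hb0, one_mul] at h1
    simpa using h1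
  have hsurj : Function.Surjective ((LinearMap.mul F L).compr₂ φ) :=
    (LinearMap.injective_iff_surjective_of_finrank_eq_finrank
      (Subspace.dual_finrank_eq (K := F) (V := L)).symm).mp hinj
  refine ⟨?_, ?_⟩
  · intro b b' h
    apply hinj
    ext c
    simpa using h c
  · intro ψ
    obtain ⟨b, hb⟩ := hsurj ψ
    refine ⟨b, fun c => ?_⟩
    have := LinearMap.congr_fun hb c
    simpa using this

theorem exists_L_form {F : Type*} [Field F] [Fintype F] {d : ℕ} {L : Type*} [Field L]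
    [Fintype L] [Algebra F L] (ρ : L →ₐ[F] Matrix (Fin d ⊕ Fin d) (Fin d ⊕ Fin d) F)
    (hself : ∀ (c : L) (u v : Fin d ⊕ Fin d → F),
      Cfsg.sympForm d F (ρ c *ᵥ u) v = Cfsg.sympForm d F u (ρ c *ᵥ v))
    (halt : ∀ (c : L) (v : Fin d ⊕ Fin d → F), Cfsg.sympForm d F (ρ c *ᵥ v) v = 0)
    (φ : L →ₗ[F] F) (hφ : φ ≠ 0) :
    ∃ B : (Fin d ⊕ Fin d → F) → (Fin d ⊕ Fin d → F) → L, IsLForm ρ φ B := by
  classical
  obtain ⟨huniq, hex⟩ := bl_riesz φ hφ
  choose B hB using fun u v => hex (blPsi ρ u v)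
  have hB' : ∀ u v c, φ (B u v * c) = Cfsg.sympForm d F (ρ c *ᵥ u) v := hB
  have hsl : ∀ (u u' v : Fin d ⊕ Fin d → F),
      Cfsg.sympForm d F (u + u') v = Cfsg.sympForm d F u v + Cfsg.sympForm d F u' v := by
    intro u u' v
    simp only [Cfsg.sympForm, add_dotProduct]
  have hsr : ∀ (u v v' : Fin d ⊕ Fin d → F),
      Cfsg.sympForm d F u (v + v') = Cfsg.sympForm d F u v + Cfsg.sympForm d F u v' := by
    intro u v v'
    simp only [Cfsg.sympForm, Matrix.mulVec_add, dotProduct_add]
  refine ⟨B, ⟨?_, ?_, ?_, ?_, ?_, ?_⟩⟩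
  · intro u u' v
    apply huniq
    intro c
    rw [hB', add_mul, map_add, hB', hB', Matrix.mulVec_add, hsl]
  · intro u v v'
    apply huniq
    intro c
    rw [hB', add_mul, map_add, hB', hB', hsr]
  · intro c' u v
    apply huniq
    intro c
    rw [hB', Matrix.mulVec_mulVec, ← map_mul, ← hB']
    congr 1
    ring
  · intro c' u v
    apply huniq
    intro c
    rw [hB', ← hself, Matrix.mulVec_mulVec, ← map_mul, ← hB']
    congr 1
    ring
  · intro v
    apply huniq
    intro c
    rw [hB', halt, zero_mul, map_zero]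
  · intro u v
    have := hB' u v 1
    rw [mul_one, map_one, Matrix.one_mulVec] at this
    exact this

end Cfsg.Agent.Lib.Helper98.F75
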