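import Mathlib
import Cfsg.Agent.Lib.Helper33.CoverGU
import Cfsg.Agent.Lib.Helper83.Codeg
import Cfsg.Agent.S0907
import Cfsg.Agent.S0959
import Cfsg.Agent.S0906
import Cfsg.Agent.Lib.Helper22.IndDefect

/-!
# Blocks over an invariant character of a normal `p'`-subgroup (helper33)

`N` is a normal subgroup of `G` of order prime to `p` and `θ` a `G`-invariant irreducible
character of `N`; `e_θ = bG N {θ}` is its idempotent, a central idempotent of the local group
ring of `G`.

* `blockOf_eq_singleton`: blocks of a `p'`-group are singletons.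
* `omega_bG_singleton`: `ω_χ(e_θ)` is `1` or `0` according as `χ` lies over `θ` or not.
* `ext_blockCoeff_eq_bG`: if `N ≤ L` and all `p`-regular elements of `L` lie in `N` (e.g. `L/N`
  a `p`-group), the idempotent of the block of any `ξ ∈ Irr(L)` over `θ` is `e_θ`.
-/

set_option autoImplicit false

namespace Cfsg.Agent.Lib.Helper33

open Cfsg Cfsg.Agent.Lib.Helper4 Cfsg.Agent.Lib.Helper21 Cfsg.Agent.Lib.Helper22
  Cfsg.Agent.Lib.Helper20
open scoped ComplexConjugate

section Single

variable {K : Type*} [Group K] [Fintype K] {p : ℕ} {M : Ideal AlgInt}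

omit [Fintype K] in
theorem blockCoeff_singleton (θ : IrrCharacter K) (k : K) :
    blockCoeff ({θ} : Set (IrrCharacter K)) k =
      (Nat.card K : ℂ)⁻¹ * ((θ : K → ℂ) 1 * conj ((θ : K → ℂ) k)) := by
  unfold blockCoeff
  rw [finsum_mem_singleton]

theorem blockCoeff_singleton_locRing (hM : IsPModular p M) (hK : ¬ p ∣ Nat.card K)
    (θ : IrrCharacter K) (k : K) :
    MemLocalRing M (blockCoeff ({θ} : Set (IrrCharacter K)) k) := by
  rw [blockCoeff_singleton, ← irr_inv]
  exact locRing_mul hM (locRing_inv_natCast hM hK)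
    (locRing_mul hM (locRing_of_isIntegral hM (irr_isIntegral θ 1))
      (locRing_of_isIntegral hM (irr_isIntegral θ k⁻¹)))

/-- The blocks of a group of order prime to `p` are singletons. -/
theorem blockOf_eq_singleton (hM : IsPModular p M) (hK : ¬ p ∣ Nat.card K)
    (θ : IrrCharacter K) : blockOf M (θ : K → ℂ) = {θ} := by
  classical
  ext φ
  constructor
  · intro hφ
    have h1 := omega_sub_locIdeal hM _ (blockCoeff_isClassFunction ({θ} : Set (IrrCharacter K)))
      (blockCoeff_singleton_locRing hM hK θ) θ φ hφ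
    rw [omega_blockCoeff, omega_blockCoeff, if_pos (Set.mem_singleton θ)] at h1
    by_contra hne
    rw [if_neg hne, sub_zero] at h1
    exact locIdeal_one_not hM h1
  · intro hφ
    rw [Set.mem_singleton_iff] at hφ
    rw [hφ]
    exact mem_blockOf_self hM θ

theorem blockCoeff_singleton_one_not_locIdeal (hM : IsPModular p M) (hK : ¬ p ∣ Nat.card K)
    (θ : IrrCharacter K) : ¬ MemLocalIdeal M (blockCoeff ({θ} : Set (IrrCharacter K)) 1) := by
  intro h
  rw [blockCoeff_singleton, (Helper83.irr_degree θ.2).2] at h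
  have hK0 : (Nat.card K : ℂ) ≠ 0 := by exact_mod_cast (Nat.card_pos (α := K)).ne'
  have hd : p ∣ charDegree (θ : K → ℂ) * charDegree (θ : K → ℂ) := by
    rw [← locIdeal_natCast_iff hM]
    have h2 := locIdeal_mul_left hM (locRing_natCast hM (Nat.card K)) h
    have e : (Nat.card K : ℂ) * ((Nat.card K : ℂ)⁻¹ * ((charDegree (θ : K → ℂ) : ℂ) *
        conj ((charDegree (θ : K → ℂ) : ℂ)))) =
        ((charDegree (θ : K → ℂ) * charDegree (θ : K → ℂ) : ℕ) : ℂ) := by
      rw [← mul_assoc, mul_inv_cancel₀ hK0, one_mul, Complex.conj_natCast]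
      push_cast
      ring
    rwa [e] at h2
  have hp : p.Prime := hM.1
  have hdd : p ∣ charDegree (θ : K → ℂ) := (hp.dvd_mul.mp hd).elim id id
  exact hK (dvd_trans hdd (Helper83.irr_degree_dvd_card θ))

end Single

section ConvSmul

variable {G : Type*} [Group G] [Fintype G]

theorem conv_smul_left (c : ℂ) (a b : G → ℂ) : conv (c • a) b = c • conv a b := by
  funext g
  simp only [conv_apply, Pi.smul_apply, smul_eq_mul, Finset.mul_sum, mul_assoc]

theorem conv_smul_right (c : ℂ) (a b : G → ℂ) : conv a (c • b) = c • conv a b := by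
  funext g
  simp only [conv_apply, Pi.smul_apply, smul_eq_mul, Finset.mul_sum]
  exact Finset.sum_congr rfl fun h _ => by ring

omit [Fintype G] in
theorem ext_smul (N : Subgroup G) (c : ℂ) (a : N → ℂ) :
    extendByZero N (c • a) = c • extendByZero N a := by
  funext g
  by_cases hg : g ∈ N
  · rw [Pi.smul_apply, Helper46.extendByZero_of_mem N _ hg, Helper46.extendByZero_of_mem N _ hg,
      Pi.smul_apply]
  · rw [Pi.smul_apply, Helper46.extendByZero_of_not_mem N _ hg,
      Helper46.extendByZero_of_not_mem N _ hg, smul_zero]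

theorem omega_zero (χ : G → ℂ) : omega χ (0 : G → ℂ) = 0 := by
  simp [omega_def]

end ConvSmul

section Inv

variable {G : Type*} [Group G] [Fintype G] (N : Subgroup G) [hN : N.Normal] [Fintype N]
  {p : ℕ} {M : Ideal AlgInt}

omit [Fintype G] [Fintype N] in
/-- The idempotent of a `G`-invariant irreducible character of `N` is a class function on
`G`. -/
theorem bG_singleton_isClassFunction (θ : IrrCharacter N)
    (hinv : ∀ (g : G) (n : N),
      (θ : N → ℂ) ⟨g * n * g⁻¹, hN.conj_mem n n.2 g⟩ = (θ : N → ℂ) n) :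
    IsClassFunction G (bG N ({θ} : Set (IrrCharacter N))) := by
  refine isClassFunction_extendByZero N _ (blockCoeff_conj_invariant N {θ} ?_)
  intro φ hφ g
  rw [Set.mem_singleton_iff] at hφ ⊢
  rw [hφ]
  apply Subtype.ext
  funext n
  exact hinv g n

omit hN in
open scoped Classical in
theorem omega_bG_singleton (θ : IrrCharacter N)
    (hcf : IsClassFunction G (bG N ({θ} : Set (IrrCharacter N)))) (χ : IrrCharacter G) :
    omega (χ : G → ℂ) (bG N ({θ} : Set (IrrCharacter N))) =
      if classInner (fun n : N => (χ : G → ℂ) n) (θ : N → ℂ) ≠ 0 then 1 else 0 := by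
  split_ifs with h
  · have hne0 : omega (χ : G → ℂ) (bG N ({θ} : Set (IrrCharacter N))) ≠ 0 := by
      rw [omega_def]
      exact div_ne_zero (sum_bG_mul_irr_ne_zero N {θ} χ θ rfl h) (Helper4.irr_one_ne_zero χ)
    have hid : omega (χ : G → ℂ) (bG N ({θ} : Set (IrrCharacter N))) *
        omega (χ : G → ℂ) (bG N ({θ} : Set (IrrCharacter N))) =
        1 * omega (χ : G → ℂ) (bG N ({θ} : Set (IrrCharacter N))) := by
      rw [← omega_conv χ _ _ hcf hcf, conv_bG, one_mul]
    exact mul_right_cancel₀ hne0 hid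
  · rw [omega_def, sum_bG_mul_irr_eq_zero N {θ} χ, zero_div]
    intro φ hφ
    rw [Set.mem_singleton_iff] at hφ
    rw [hφ]
    exact not_not.mp h

variable (T : Subgroup G) [Fintype T] (hNT : N ≤ T)

omit hN in
/-- `omega_bT_of_over` with the class-function property as a hypothesis. -/
theorem omega_bT_of_over' {b : Set (IrrCharacter N)} (hcf : IsClassFunction T (bT N T b))
    (ξ : IrrCharacter T) (h : OverB N T hNT b (ξ : T → ℂ)) :
    omega (ξ : T → ℂ) (bT N T b) = 1 := by
  classical
  have := irr_finite (G := N)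
  let _ := Fintype.ofFinite (IrrCharacter N)
  have hidem : omega (ξ : T → ℂ) (bT N T b) * omega (ξ : T → ℂ) (bT N T b) =
      omega (ξ : T → ℂ) (bT N T b) := by
    rw [← omega_conv ξ _ _ hcf hcf, conv_bT N T hNT b]
  have hne : omega (ξ : T → ℂ) (bT N T b) ≠ 0 := by
    rw [omega_def, sum_bT_mul N T hNT b _ (isClassFunction_irr ξ)]
    apply div_ne_zero _ (Helper4.irr_one_ne_zero ξ)
    have hk : ∀ φ : IrrCharacter N, ∃ k : ℕ,
        classInner (resN N T hNT (ξ : T → ℂ)) (φ : N → ℂ) = k :=
      fun φ => Helper35.classInner_char_nat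
        (resN_isCharacter N T hNT (isCharacter_of_irr ξ)) (isCharacter_of_irr φ)
    choose k hk using hk
    obtain ⟨θ, hθ, hθne⟩ := h
    have hsum : ∑ φ : IrrCharacter N, classInner (resN N T hNT (ξ : T → ℂ)) (φ : N → ℂ) *
        ((if φ ∈ b then (1 : ℂ) else 0) * (φ : N → ℂ) 1) =
        ((∑ φ : IrrCharacter N, k φ * ((if φ ∈ b then 1 else 0) *
          charDegree (φ : N → ℂ)) : ℕ) : ℂ) := by
      push_cast
      refine Finset.sum_congr rfl fun φ _ => ?_
      rw [hk φ, (Helper83.irr_degree φ.2).2]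
    rw [hsum]
    have hpos : 0 < ∑ φ : IrrCharacter N, k φ * ((if φ ∈ b then 1 else 0) *
        charDegree (φ : N → ℂ)) := by
      refine Finset.sum_pos' (fun _ _ => Nat.zero_le _) ⟨θ, Finset.mem_univ _, ?_⟩
      have hkθ : k θ ≠ 0 := by
        intro h0
        apply hθne
        rw [hk θ, h0]
        simp
      rw [if_pos hθ, one_mul]
      exact Nat.mul_pos (Nat.pos_of_ne_zero hkθ) (Helper83.irr_degree θ.2).1
    exact_mod_cast hpos.ne'
  have h3 : omega (ξ : T → ℂ) (bT N T b) * omega (ξ : T → ℂ) (bT N T b) =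
      1 * omega (ξ : T → ℂ) (bT N T b) := by rw [hidem, one_mul]
  exact mul_right_cancel₀ hne h3

omit hN in
open scoped Classical in
theorem omega_bT_singleton (θ : IrrCharacter N)
    (hcf : IsClassFunction T (bT N T ({θ} : Set (IrrCharacter N)))) (ξ : IrrCharacter T) :
    omega (ξ : T → ℂ) (bT N T ({θ} : Set (IrrCharacter N))) =
      if classInner (resN N T hNT (ξ : T → ℂ)) (θ : N → ℂ) ≠ 0 then 1 else 0 := by
  split_ifs with h
  · exact omega_bT_of_over' N T hNT hcf ξ ⟨θ, rfl, h⟩
  · apply omega_bT_of_not_over N T hNT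
    rintro ⟨φ, hφ, hne⟩
    rw [Set.mem_singleton_iff] at hφ
    rw [hφ] at hne
    exact h hne

end Inv

section LLevel

variable {G : Type*} [Group G] [Fintype G] (N : Subgroup G) [hN : N.Normal] [Fintype N]
  {p : ℕ} [Fact p.Prime] {M : Ideal AlgInt}

/-- Let `N ≤ L`, `p ∤ |N|`, all `p`-regular elements of `L` in `N`, and `θ ∈ Irr(N)` with
`e_θ` central in `G`.  Then the idempotent of the block of any `ξ ∈ Irr(L)` over `θ` is
`e_θ`. -/
theorem ext_blockCoeff_eq_bG (hM : IsPModular p M) (hpN : ¬ p ∣ Nat.card N) (L : Subgroup G)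
    [Fintype L] (hNL : N ≤ L) (hreg : ∀ l : L, ¬ p ∣ orderOf l → (l : G) ∈ N)
    (θ : IrrCharacter N) (hcf : IsClassFunction G (bG N ({θ} : Set (IrrCharacter N))))
    (ξ : IrrCharacter L) (hξ : classInner (resN N L hNL (ξ : L → ℂ)) (θ : N → ℂ) ≠ 0) :
    extendByZero L (blockCoeff (blockOf M (ξ : L → ℂ))) =
      bG N ({θ} : Set (IrrCharacter N)) := by
  classical
  have hcfL : IsClassFunction L (bT N L ({θ} : Set (IrrCharacter N))) := by
    intro l t
    have := hcf (l : G) (t : G)
    simpa [bT] using this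
  have hlocL : ∀ l, MemLocalRing M (bT N L ({θ} : Set (IrrCharacter N)) l) :=
    fun l => bG_loc N hM {θ} (blockCoeff_singleton_locRing hM hpN θ) l
  have hfcf := blockCoeff_isClassFunction (blockOf M (ξ : L → ℂ))
  have hξb : ξ ∈ blockOf M (ξ : L → ℂ) := mem_blockOf_self hM ξ
  -- the block idempotent vanishes at the `p`-singular elements
  have hfsing : ∀ l : L, p ∣ orderOf l → blockCoeff (blockOf M (ξ : L → ℂ)) l = 0 := by
    intro l hl
    have h1 := Cfsg.Agent.S0907.result p M hM (blockOf M (ξ : L → ℂ)) ⟨ξ, rfl⟩ 1 l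
      (by rw [orderOf_one]; exact (Fact.out : p.Prime).one_lt.ne' ∘ Nat.dvd_one.mp) hl
    unfold blockCoeff
    rw [h1, mul_zero]
  have hFsupp : SuppOn N 1 (extendByZero L (blockCoeff (blockOf M (ξ : L → ℂ)))) := by
    intro g hg
    by_cases hgL : g ∈ L
    · rw [Helper46.extendByZero_of_mem L _ hgL]
      by_cases hs : p ∣ orderOf (⟨g, hgL⟩ : L)
      · exact hfsing _ hs
      · exfalso
        exact hg ((QuotientGroup.eq_one_iff g).mpr (hreg ⟨g, hgL⟩ hs))
    · exact Helper46.extendByZero_of_not_mem L _ hgL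
  have hω1 : ∀ μ ∈ blockOf M (ξ : L → ℂ),
      omega (μ : L → ℂ) (bT N L ({θ} : Set (IrrCharacter N))) = 1 := by
    intro μ hμ
    have h1 := omega_sub_locIdeal hM _ hcfL hlocL ξ μ hμ
    rw [omega_bT_singleton N L hNL θ hcfL ξ, if_pos hξ,
      omega_bT_singleton N L hNL θ hcfL μ] at h1
    rw [omega_bT_singleton N L hNL θ hcfL μ]
    split_ifs at h1 ⊢ with h2
    · rfl
    · rw [sub_zero] at h1
      exact absurd h1 (locIdeal_one_not hM)
  have hef : conv (bT N L ({θ} : Set (IrrCharacter N))) (blockCoeff (blockOf M (ξ : L → ℂ))) =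
      blockCoeff (blockOf M (ξ : L → ℂ)) := by
    refine Helper22.eq_of_omega_eq _ _ (conv_isClassFunction hcfL hfcf) hfcf (fun μ => ?_)
    rw [omega_conv μ _ _ hcfL hfcf, omega_blockCoeff]
    by_cases hμ : μ ∈ blockOf M (ξ : L → ℂ)
    · rw [if_pos hμ, hω1 μ hμ, one_mul]
    · rw [if_neg hμ, mul_zero]
  have hF : extendByZero L (blockCoeff (blockOf M (ξ : L → ℂ))) =
      conv (bG N ({θ} : Set (IrrCharacter N)))
        (extendByZero L (blockCoeff (blockOf M (ξ : L → ℂ)))) := by
    have h1 := ext_conv L (bT N L ({θ} : Set (IrrCharacter N)))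
      (blockCoeff (blockOf M (ξ : L → ℂ)))
    rw [hef, ext_bT N L hNL] at h1
    exact h1
  have hFinv : NInv N (extendByZero L (blockCoeff (blockOf M (ξ : L → ℂ)))) :=
    fun n hn g => ext_classFunction_conj L _ hfcf n (hNL hn) g
  have hφcf := resF_isClassFunction N hFinv
  have hFφ := ext_resF N hFsupp
  have hconv : conv (blockCoeff ({θ} : Set (IrrCharacter N)))
      (resF N (extendByZero L (blockCoeff (blockOf M (ξ : L → ℂ))))) =
      omega (θ : N → ℂ) (resF N (extendByZero L (blockCoeff (blockOf M (ξ : L → ℂ))))) •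
        blockCoeff ({θ} : Set (IrrCharacter N)) := by
    have hacf := blockCoeff_isClassFunction ({θ} : Set (IrrCharacter N))
    have hscf : IsClassFunction N
        (omega (θ : N → ℂ) (resF N (extendByZero L (blockCoeff (blockOf M (ξ : L → ℂ))))) •
        blockCoeff ({θ} : Set (IrrCharacter N))) := by
      intro n k
      simp only [Pi.smul_apply]
      rw [hacf n k]
    refine Helper22.eq_of_omega_eq _ _ (conv_isClassFunction hacf hφcf) hscf (fun φ => ?_)
    rw [omega_conv φ _ _ hacf hφcf, omega_smul, omega_blockCoeff]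
    by_cases hφ : φ ∈ ({θ} : Set (IrrCharacter N))
    · rw [if_pos hφ, one_mul, mul_one, Set.mem_singleton_iff.mp hφ]
    · rw [if_neg hφ, zero_mul, mul_zero]
  -- `F = c • e_θ`
  have hFc : extendByZero L (blockCoeff (blockOf M (ξ : L → ℂ))) =
      omega (θ : N → ℂ) (resF N (extendByZero L (blockCoeff (blockOf M (ξ : L → ℂ))))) •
        bG N ({θ} : Set (IrrCharacter N)) := by
    have h1 : conv (bG N ({θ} : Set (IrrCharacter N)))
        (extendByZero N (resF N (extendByZero L (blockCoeff (blockOf M (ξ : L → ℂ)))))) =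
        omega (θ : N → ℂ) (resF N (extendByZero L (blockCoeff (blockOf M (ξ : L → ℂ))))) •
        bG N ({θ} : Set (IrrCharacter N)) := by
      unfold bG
      rw [← ext_conv, hconv, ext_smul]
    rw [hFφ] at h1
    rw [← h1]
    exact hF
  generalize omega (θ : N → ℂ)
    (resF N (extendByZero L (blockCoeff (blockOf M (ξ : L → ℂ))))) = c at hFc
  have hE1 : bG N ({θ} : Set (IrrCharacter N)) 1 ≠ 0 := by
    intro h0
    apply blockCoeff_singleton_one_not_locIdeal hM hpN θ
    have h2 : bG N ({θ} : Set (IrrCharacter N)) ((1 : N) : G) =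
        blockCoeff ({θ} : Set (IrrCharacter N)) 1 := Helper46.extendByZero_coe N _ 1
    rw [← h2]
    rw [OneMemClass.coe_one, h0]
    exact locIdeal_zero hM
  have hFF : conv (extendByZero L (blockCoeff (blockOf M (ξ : L → ℂ))))
      (extendByZero L (blockCoeff (blockOf M (ξ : L → ℂ)))) =
      extendByZero L (blockCoeff (blockOf M (ξ : L → ℂ))) := by
    rw [← ext_conv, conv_blockCoeff_self]
  have hc : c = 1 := by
    have h1 := hFF
    rw [hFc, conv_smul_left, conv_smul_right, conv_bG, smul_smul] at h1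
    have h2 := congrFun h1 1
    simp only [Pi.smul_apply, smul_eq_mul] at h2
    have h3 : c * c = c := mul_right_cancel₀ hE1 h2
    have h4 : c * (c - 1) = 0 := by rw [mul_sub, h3, mul_one, sub_self]
    rcases mul_eq_zero.mp h4 with h | h
    · exfalso
      rw [h, zero_smul] at hFc
      have h5 : blockCoeff (blockOf M (ξ : L → ℂ)) = 0 := by
        funext l
        have h6 := congrFun hFc (l : G)
        rw [Helper46.extendByZero_coe] at h6
        exact h6
      have h7 := omega_blockCoeff (blockOf M (ξ : L → ℂ)) ξ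
      rw [if_pos hξb, h5, omega_zero] at h7
      exact zero_ne_one h7
    · exact sub_eq_zero.mp h
  rw [hFc, hc, one_smul]

end LLevel

section FullDefect

variable {K : Type*} [Group K] [Fintype K] {p : ℕ} [Fact p.Prime] {M : Ideal AlgInt}

/-- If the idempotent of a block has a unit coefficient at `1`, every Sylow `p`-subgroup is a
defect group of the block. -/
theorem sylow_isDefectGroup_of_unit_one (hM : IsPModular p M) (B : Set (IrrCharacter K))
    (hB : IsPBlock M B) (h1 : ¬ MemLocalIdeal M (blockCoeff B 1)) (S : Sylow p K) :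
    IsDefectGroup p M B (S : Subgroup K) := by
  obtain ⟨g₀, hg₀⟩ := Cfsg.Agent.S0906.result p M hM B hB
  obtain ⟨P₀⟩ : Nonempty (Sylow p (Subgroup.centralizer ({g₀} : Set K))) := inferInstance
  have hD₀ : IsDefectGroup p M B ((P₀ : Subgroup (Subgroup.centralizer ({g₀} : Set K))).map
      (Subgroup.centralizer ({g₀} : Set K)).subtype) := ⟨g₀, hg₀, P₀, rfl⟩
  have hD₀p : IsPGroup p ((P₀ : Subgroup (Subgroup.centralizer ({g₀} : Set K))).map
      (Subgroup.centralizer ({g₀} : Set K)).subtype) := P₀.isPGroup'.map _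
  generalize (P₀ : Subgroup (Subgroup.centralizer ({g₀} : Set K))).map
      (Subgroup.centralizer ({g₀} : Set K)).subtype = D₀ at hD₀ hD₀p
  obtain ⟨x, hx⟩ := (Cfsg.Agent.S0959.result p M hM B hB D₀ hD₀ (S : Subgroup K) S.isPGroup').mp
    ⟨1, osima hM B hB 1, h1, 1, IsConj.refl 1, one_mem _⟩
  have hD' := isDefectGroup_conj (M := M) (p := p) B D₀ x⁻¹ hD₀
  have hD'p : IsPGroup p (D₀.map (MulAut.conj x⁻¹).toMonoidHom) := hD₀p.map _
  have hSD' : (S : Subgroup K) ≤ D₀.map (MulAut.conj x⁻¹).toMonoidHom := by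
    intro q hq
    have h2 : x * q * x⁻¹ ∈ D₀ :=
      hx (Subgroup.mem_map.mpr ⟨q, hq, by simp [MulAut.conj_apply]⟩)
    refine Subgroup.mem_map.mpr ⟨x * q * x⁻¹, h2, ?_⟩
    simp only [MulEquiv.coe_toMonoidHom, MulAut.conj_apply]
    group
  rw [S.is_maximal' hD'p hSD'] at hD'
  exact hD'

/-- If the idempotent of a block has a unit coefficient at `1`, every defect group of the block
is a Sylow `p`-subgroup. -/
theorem defectGroup_eq_sylow_of_unit_one (hM : IsPModular p M) (B : Set (IrrCharacter K))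
    (hB : IsPBlock M B) (h1 : ¬ MemLocalIdeal M (blockCoeff B 1)) (D : Subgroup K)
    (hD : IsDefectGroup p M B D) : ∃ P : Sylow p K, D = (P : Subgroup K) := by
  obtain ⟨S⟩ : Nonempty (Sylow p K) := inferInstance
  obtain ⟨x, hx⟩ := (Cfsg.Agent.S0959.result p M hM B hB D hD (S : Subgroup K) S.isPGroup').mp
    ⟨1, osima hM B hB 1, h1, 1, IsConj.refl 1, one_mem _⟩
  have hDp : IsPGroup p D := by
    obtain ⟨g, -, P, rfl⟩ := hD
    exact P.isPGroup'.map _
  obtain ⟨P₂, hP₂⟩ := hDp.exists_le_sylow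
  refine ⟨P₂, Subgroup.eq_of_le_of_card_ge hP₂ ?_⟩
  have h2 := Subgroup.card_le_of_le hx
  rw [Subgroup.card_map_of_injective (MulAut.conj x).injective, Sylow.card_eq_multiplicity] at h2
  rw [Sylow.card_eq_multiplicity]
  exact h2

end FullDefect

section Onto

/-- A Sylow `p`-subgroup of the preimage of a `p`-subgroup `O` of `G / N` maps onto `O`. -/
theorem sylow_maps_onto {G : Type*} [Group G] [Finite G] {p : ℕ} [Fact p.Prime]
    (N : Subgroup G) [N.Normal] (O : Subgroup (G ⧸ N)) (hO : IsPGroup p O)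
    (S : Sylow p (O.comap (QuotientGroup.mk' N))) (y : G ⧸ N) (hy : y ∈ O) :
    ∃ s : O.comap (QuotientGroup.mk' N), s ∈ (S : Subgroup (O.comap (QuotientGroup.mk' N))) ∧
      (QuotientGroup.mk' N) (s : G) = y := by
  have hf := MonoidHom.subgroupComap_surjective_of_surjective (QuotientGroup.mk' N) O
    (QuotientGroup.mk'_surjective N)
  have h1 : ((S.mapSurjective hf : Sylow p O) : Subgroup O) = ⊤ :=
    ((S.mapSurjective hf).is_maximal' (hO.to_subgroup ⊤) le_top).symm
  rw [Sylow.coe_mapSurjective] at h1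
  have h2 : (⟨y, hy⟩ : O) ∈
      (S : Subgroup (O.comap (QuotientGroup.mk' N))).map
        ((QuotientGroup.mk' N).subgroupComap O) := by
    rw [h1]
    trivial
  obtain ⟨s, hs, hsy⟩ := Subgroup.mem_map.mp h2
  exact ⟨s, hs, congrArg Subtype.val hsy⟩

end Onto

end Cfsg.Agent.Lib.Helper33
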