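import Mathlib
import Cfsg.Agent.Lib.Helper53.GT6Def

/-!
# GT6, piece M3A (helper33, for helper53): a unitary `h` with `h g = c g' σ(h)` is
`d B' j(k₀) B⁻¹` with `k₀ g₀ k₀ᵀ = μ g₀'`
-/

set_option autoImplicit false

namespace Cfsg.Agent.Lib.Helper33.GT6M3A
open Matrix Cfsg.Agent.Lib.Helper53 Cfsg.Agent.Lib.Helper53.GT6
variable {F : Type*} [Field F] {F₀ : Type*} [Field F₀] {n : ℕ}

/-- M3a: a unitary `h` with `h g = c g' σ(h)` is `d B' j(k₀) B⁻¹` with `k₀ g₀ k₀ᵀ = μ g₀'` -/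
theorem conj_param [Fintype F] (σ : F ≃+* F) (hord : orderOf σ = 2) (j : F₀ →+* F)
    (hj : ∀ a : F, σ a = a ↔ a ∈ Set.range j) (hn : 0 < n)
    (g B g' B' : Matrix (Fin n) (Fin n) F) (g₀ g₀' : Matrix (Fin n) (Fin n) F₀)
    (hD : Desc σ j g B g₀) (hD' : Desc σ j g' B' g₀') (hg₀ : g₀.det ≠ 0) (hg₀' : g₀'.det ≠ 0)
    (h : Matrix (Fin n) (Fin n) F) (hU : h.transpose * h.map σ = 1) (c : F) (hc : c ≠ 0)
    (hh : h * g = c • (g' * h.map σ)) :
    ∃ (d : F) (k₀ : Matrix (Fin n) (Fin n) F₀) (μ : F₀), d ≠ 0 ∧ μ ≠ 0 ∧ k₀.det ≠ 0 ∧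
      h * B = d • (B' * k₀.map j) ∧ k₀ * g₀ * k₀.transpose = μ • g₀' := by
  classical
  have hσ2 : ∀ x, σ (σ x) = x := SUGO.sigma_sigma σ hord
  have hne : Nonempty (Fin n) := Fin.pos_iff_nonempty.mp hn
  obtain ⟨hB, ⟨c₁, hc₁0, hc₁⟩, ω, hω0, hω⟩ := hD
  obtain ⟨hB', ⟨c₂, hc₂0, hc₂⟩, ω', hω'0, hω'⟩ := hD'
  have hB'u : IsUnit B'.det := isUnit_iff_ne_zero.2 hB'
  obtain ⟨K, hK⟩ : ∃ K : Matrix (Fin n) (Fin n) F, K = B'⁻¹ * h * B := ⟨_, rfl⟩
  have hBK : B' * K = h * B := by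
    rw [hK, ← Matrix.mul_assoc, ← Matrix.mul_assoc, Matrix.mul_nonsing_inv _ hB'u,
      Matrix.one_mul]
  have h1 : B'.map σ * K.map σ = h.map σ * B.map σ := by
    rw [← map_sigma_mul, ← map_sigma_mul, hBK]
  have h2 : (c * c₂) • (B' * K.map σ) = c₁ • (B' * K) := by
    calc (c * c₂) • (B' * K.map σ) = c • ((c₂ • B') * K.map σ) := by
          rw [Matrix.smul_mul, smul_smul]
      _ = c • (g' * B'.map σ * K.map σ) := by rw [hc₂]
      _ = c • (g' * (h.map σ * B.map σ)) := by rw [Matrix.mul_assoc, h1]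
      _ = (c • (g' * h.map σ)) * B.map σ := by rw [← Matrix.mul_assoc, Matrix.smul_mul]
      _ = h * g * B.map σ := by rw [hh]
      _ = h * (c₁ • B) := by rw [Matrix.mul_assoc, hc₁]
      _ = c₁ • (B' * K) := by rw [Matrix.mul_smul, hBK]
  have hcc₂ : c * c₂ ≠ 0 := mul_ne_zero hc hc₂0
  have h3 : (c * c₂) • K.map σ = c₁ • K := by
    have e1 := congrArg (fun M : Matrix (Fin n) (Fin n) F => B'⁻¹ * M) h2
    simp only [Matrix.mul_smul] at e1
    rw [← Matrix.mul_assoc, ← Matrix.mul_assoc, Matrix.nonsing_inv_mul _ hB'u, Matrix.one_mul,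
      Matrix.one_mul] at e1
    exact e1
  obtain ⟨e, he⟩ : ∃ e : F, e = c₁ / (c * c₂) := ⟨_, rfl⟩
  have h4 : K.map σ = e • K := by
    have e1 := congrArg (fun M : Matrix (Fin n) (Fin n) F => (c * c₂)⁻¹ • M) h3
    simp only [smul_smul] at e1
    rw [inv_mul_cancel₀ hcc₂, one_smul] at e1
    rw [e1, he, div_eq_inv_mul]
  -- determinants
  have hhdet : h.det ≠ 0 := by
    have e1 := congrArg Matrix.det hU
    rw [Matrix.det_mul, Matrix.det_transpose, Matrix.det_one] at e1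
    exact left_ne_zero_of_mul_eq_one e1
  have hKdet : K.det ≠ 0 := by
    have e1 := congrArg Matrix.det hBK
    rw [Matrix.det_mul, Matrix.det_mul] at e1
    intro h0
    rw [h0, mul_zero] at e1
    exact mul_ne_zero hhdet hB e1.symm
  obtain ⟨a₀, b₀, hab⟩ : ∃ a₀ b₀, K a₀ b₀ ≠ 0 := by
    by_contra hcon
    push Not at hcon
    apply hKdet
    have hK0 : K = 0 := by
      ext x y
      exact hcon x y
    rw [hK0, Matrix.det_zero]
  -- the norm of `e` is `1`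
  have hN : H90.nrm σ 2 e = 1 := by
    rw [Herm.nrm_two]
    have e1 : K = (σ e * e) • K := by
      calc K = (K.map σ).map σ := (map_map_sigma σ hσ2 K).symm
        _ = (e • K).map σ := by rw [h4]
        _ = σ e • K.map σ := map_sigma_smul σ e K
        _ = (σ e * e) • K := by rw [h4, smul_smul]
    have e2 := congrFun (congrFun e1 a₀) b₀
    simp only [Matrix.smul_apply, smul_eq_mul] at e2
    have e3 : (σ e * e - 1) * K a₀ b₀ = 0 := by
      rw [sub_mul, one_mul, ← e2, sub_self]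
    rcases mul_eq_zero.mp e3 with e4 | e4
    · rw [mul_comm]
      exact sub_eq_zero.mp e4
    · exact absurd e4 hab
  obtain ⟨b, hb0, hb⟩ := H90.exists_fixed_scalar σ 2 (by norm_num) hord e hN
  have hfix : ∀ x y, σ (b * K x y) = b * K x y := by
    intro x y
    have e1 := congrFun (congrFun h4 x) y
    simp only [Matrix.map_apply, Matrix.smul_apply, smul_eq_mul] at e1
    rw [map_mul, e1, ← mul_assoc, mul_comm (σ b), hb]
  choose k₀f hk₀f using fun x y => (hj _).1 (hfix x y)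
  have hk₀map : (Matrix.of k₀f).map j = b • K := by
    ext x y
    simp only [Matrix.map_apply, Matrix.of_apply, Matrix.smul_apply, smul_eq_mul, hk₀f]
  obtain ⟨k₀, hk₀⟩ : ∃ k₀ : Matrix (Fin n) (Fin n) F₀, k₀ = Matrix.of k₀f := ⟨_, rfl⟩
  rw [← hk₀] at hk₀map
  have hk₀det : k₀.det ≠ 0 := by
    intro h0
    have e1 : (k₀.map j).det = j k₀.det := by
      rw [RingHom.map_det]
      rfl
    rw [h0, map_zero, hk₀map, Matrix.det_smul] at e1
    exact mul_ne_zero (pow_ne_zero _ hb0) hKdet e1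
  obtain ⟨J, hJ⟩ : ∃ J : Matrix (Fin n) (Fin n) F, J = k₀.map j := ⟨_, rfl⟩
  obtain ⟨d, hd⟩ : ∃ d : F, d = b⁻¹ := ⟨_, rfl⟩
  have hhB : h * B = d • (B' * J) := by
    rw [hJ, hd, hk₀map, Matrix.mul_smul, smul_smul, inv_mul_cancel₀ hb0, one_smul, hBK]
  have hJσ : J.map σ = J := by
    rw [hJ]
    ext x y
    exact (hj _).2 ⟨k₀ x y, rfl⟩
  have hd0 : d ≠ 0 := hd ▸ inv_ne_zero hb0
  have hσd0 : σ d ≠ 0 := (map_ne_zero σ).2 hd0
  -- unitarity of `h`
  obtain ⟨M', hM'⟩ : ∃ M' : Matrix (Fin n) (Fin n) F, M' = B'.transpose * B'.map σ := ⟨_, rfl⟩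
  obtain ⟨G0, hG0⟩ : ∃ G0 : Matrix (Fin n) (Fin n) F, G0 = g₀.map j := ⟨_, rfl⟩
  obtain ⟨G0', hG0'⟩ : ∃ G0' : Matrix (Fin n) (Fin n) F, G0' = g₀'.map j := ⟨_, rfl⟩
  rw [← hM', ← hG0'] at hω'
  rw [← hG0] at hω
  have E1 : (h * B).transpose * (h * B).map σ = B.transpose * B.map σ := by
    rw [Matrix.transpose_mul, map_sigma_mul, Matrix.mul_assoc, ← Matrix.mul_assoc h.transpose,
      hU, Matrix.one_mul]
  have E2 : (d * σ d) • (J.transpose * M' * J) = B.transpose * B.map σ := by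
    rw [← E1, hhB, Matrix.transpose_smul, Matrix.transpose_mul, map_sigma_smul, map_sigma_mul,
      hJσ, Matrix.smul_mul, Matrix.mul_smul, smul_smul, hM']
    congr 1
    simp only [Matrix.mul_assoc]
  have E3 : ((d * σ d) • (J.transpose * M')) * (J * G0) = ω • 1 := by
    rw [← hω, ← E2, Matrix.smul_mul, Matrix.smul_mul]
    congr 1
    simp only [Matrix.mul_assoc]
  have E4 : (J * G0) * ((d * σ d) • (J.transpose * M')) = ω • 1 := by
    have e1 : (ω⁻¹ • ((d * σ d) • (J.transpose * M'))) * (J * G0) = 1 := by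
      rw [Matrix.smul_mul, E3, smul_smul, inv_mul_cancel₀ hω0, one_smul]
    have e2 := mul_eq_one_comm.mp e1
    rw [Matrix.mul_smul] at e2
    have e3 := congrArg (fun M : Matrix (Fin n) (Fin n) F => ω • M) e2
    simp only [smul_smul] at e3
    rw [mul_inv_cancel₀ hω0, one_smul] at e3
    exact e3
  have E5 : (d * σ d * ω') • (J * G0 * J.transpose) = ω • G0' := by
    calc (d * σ d * ω') • (J * G0 * J.transpose)
        = (d * σ d) • ((J * G0 * J.transpose) * (ω' • (1 : Matrix (Fin n) (Fin n) F))) := by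
          rw [Matrix.mul_smul, Matrix.mul_one, smul_smul]
      _ = (d * σ d) • ((J * G0 * J.transpose) * (M' * G0')) := by rw [hω']
      _ = ((J * G0) * ((d * σ d) • (J.transpose * M'))) * G0' := by
          rw [Matrix.mul_smul, Matrix.smul_mul]
          congr 1
          simp only [Matrix.mul_assoc]
      _ = ω • G0' := by rw [E4, Matrix.smul_mul, Matrix.one_mul]
  obtain ⟨ν, hν⟩ : ∃ ν : F, ν = ω / (d * σ d * ω') := ⟨_, rfl⟩
  have hdd : d * σ d * ω' ≠ 0 := mul_ne_zero (mul_ne_zero hd0 hσd0) hω'0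
  have hν0 : ν ≠ 0 := hν ▸ div_ne_zero hω0 hdd
  have E6 : J * G0 * J.transpose = ν • G0' := by
    have e1 := congrArg (fun M : Matrix (Fin n) (Fin n) F => (d * σ d * ω')⁻¹ • M) E5
    simp only [smul_smul] at e1
    rw [inv_mul_cancel₀ hdd, one_smul] at e1
    rw [e1, hν, div_eq_inv_mul]
  have hmap : (k₀ * g₀ * k₀.transpose).map j = J * G0 * J.transpose := by
    rw [hJ, hG0, Matrix.map_mul, Matrix.map_mul, Matrix.transpose_map]
  -- a nonzero entry of `g₀'`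
  obtain ⟨x₀, y₀, hxy⟩ : ∃ x₀ y₀, g₀' x₀ y₀ ≠ 0 := by
    by_contra hcon
    push Not at hcon
    apply hg₀'
    have h0 : g₀' = 0 := by
      ext x y
      exact hcon x y
    rw [h0, Matrix.det_zero]
  have hjxy : j (g₀' x₀ y₀) ≠ 0 := (map_ne_zero j).2 hxy
  obtain ⟨μ, hμ⟩ : ∃ μ : F₀, μ = (k₀ * g₀ * k₀.transpose) x₀ y₀ / g₀' x₀ y₀ := ⟨_, rfl⟩
  have hjμ : j μ = ν := by
    have e1 := congrFun (congrFun (hmap.trans E6) x₀) y₀
    simp only [Matrix.map_apply, Matrix.smul_apply, smul_eq_mul, hG0'] at e1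
    rw [hμ, map_div₀, e1, mul_div_assoc, div_self hjxy, mul_one]
  have hμ0 : μ ≠ 0 := by
    rintro rfl
    rw [map_zero] at hjμ
    exact hν0 hjμ.symm
  refine ⟨d, k₀, μ, hd0, hμ0, hk₀det, ?_, ?_⟩
  · rw [hhB, hJ]
  · apply Matrix.map_injective j.injective
    show (k₀ * g₀ * k₀.transpose).map j = (μ • g₀').map j
    rw [hmap, E6, hG0', ← hjμ]
    ext x y
    simp only [Matrix.map_apply, Matrix.smul_apply, smul_eq_mul, map_mul]

end Cfsg.Agent.Lib.Helper33.GT6M3A
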