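import Cfsg.Agent.Lib.Helper98.H74Defs

/-!
# Project H74 (S5974), piece EXR

`rnd_exists_of`: invariant nondegenerate subspaces of `[V, g]` with `j` constituents, built block
by block; the two block lemmas (BLKE / BLKO of the skeleton) are taken as hypotheses `hE`, `hO`.
Auxiliary lemmas are prefixed `exr_`.
-/

set_option autoImplicit false

namespace Cfsg.Agent.Lib.Helper98.H74

open Cfsg.Agent.Lib.Helper47 Cfsg.Agent.Lib.Helper98.T73 Module Polynomial

universe u

variable {F : Type u} [Field F] [Fintype F] {V : Type u} [AddCommGroup V] [Module F V]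
  [FiniteDimensional F V] {Q : V → F} {B : V → V → F}

/-- One step: enlarge an invariant nondegenerate `W < [V, g]` by a block taken in its orthogonal
complement inside `[V, g]`. -/
theorem exr_step (hB : IsSForm (RingHom.id F) 1 B) (g : Module.End F V)
    (hgi : ∀ x y, B (g x) (g y) = B x y) (r : ℕ) (hr : 0 < r) (hg : g ^ r = 1)
    (hRnd : Nondeg (resForm B (LinearMap.range (g - 1)))) (c : ℕ)
    (hblk : ∀ W : Submodule F V, W ≤ LinearMap.range (g - 1) → W.map g ≤ W →
      Nondeg (resForm B W) → W ≠ ⊥ →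
      ∃ Z : Submodule F V, Z ≤ W ∧ Z.map g ≤ Z ∧ Nondeg (resForm B Z) ∧ finrank F Z = c)
    (W : Submodule F V) (hWR : W ≤ LinearMap.range (g - 1)) (hWg : W.map g ≤ W)
    (hWnd : Nondeg (resForm B W))
    (hlt : finrank F W < finrank F (LinearMap.range (g - 1))) :
    ∃ W₂ : Submodule F V, W₂ ≤ LinearMap.range (g - 1) ∧ W₂.map g ≤ W₂ ∧
      Nondeg (resForm B W₂) ∧ finrank F W₂ = finrank F W + c := by
  have hc := isCompl_orth hB hWnd
  have hWg' : ∀ x ∈ W, g x ∈ W := fun x hx => hWg (Submodule.mem_map_of_mem hx)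
  have hWpow : ∀ n : ℕ, ∀ x ∈ W, (g ^ n) x ∈ W := by
    intro n
    induction n with
    | zero =>
      intro x hx
      simpa using hx
    | succ n ih =>
      intro x hx
      rw [pow_succ', Module.End.mul_apply]
      exact hWg' _ (ih x hx)
  have hRg : ∀ y ∈ LinearMap.range (g - 1), g y ∈ LinearMap.range (g - 1) := by
    rintro _ ⟨v, rfl⟩
    refine ⟨g v, ?_⟩
    simp only [LinearMap.sub_apply, Module.End.one_apply, map_sub]
  have hW'R : hB.orth W ⊓ LinearMap.range (g - 1) ≤ LinearMap.range (g - 1) := inf_le_right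
  have hW'g : (hB.orth W ⊓ LinearMap.range (g - 1)).map g ≤
      hB.orth W ⊓ LinearMap.range (g - 1) := by
    intro t ht
    obtain ⟨y, hy, rfl⟩ := Submodule.mem_map.1 ht
    have hy' := Submodule.mem_inf.1 hy
    refine Submodule.mem_inf.2 ⟨hB.mem_orth.2 (fun x hx => ?_), hRg y hy'.2⟩
    rw [← form_inv_left g hgi r hr hg x y]
    exact hB.mem_orth.1 hy'.1 _ (hWpow (r - 1) x hx)
  have hdec : ∀ v ∈ LinearMap.range (g - 1), ∃ w ∈ W,
      ∃ u ∈ hB.orth W ⊓ LinearMap.range (g - 1), v = w + u := by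
    intro v hv
    have hv' : v ∈ W ⊔ hB.orth W := by
      rw [hc.sup_eq_top]
      exact Submodule.mem_top
    obtain ⟨w, hw, u, hu, rfl⟩ := Submodule.mem_sup.mp hv'
    refine ⟨w, hw, u, Submodule.mem_inf.2 ⟨hu, ?_⟩, rfl⟩
    have h2 := Submodule.sub_mem _ hv (hWR hw)
    rwa [add_sub_cancel_left] at h2
  have hW'nd : Nondeg (resForm B (hB.orth W ⊓ LinearMap.range (g - 1))) := by
    rintro ⟨y, hy⟩ h
    have hy' := Submodule.mem_inf.1 hy
    apply Subtype.ext
    have h0 : (⟨y, hy'.2⟩ : LinearMap.range (g - 1)) = 0 := by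
      apply hRnd
      rintro ⟨v, hv⟩
      obtain ⟨w, hw, u, hu, rfl⟩ := hdec v hv
      change B y (w + u) = 0
      rw [hB.add_right, hB.refl (hB.mem_orth.1 hy'.1 w hw), zero_add]
      exact h ⟨u, hu⟩
    have h1 : y = 0 := congrArg Subtype.val h0
    exact h1
  have hW'0 : hB.orth W ⊓ LinearMap.range (g - 1) ≠ ⊥ := by
    intro h0
    have hle : LinearMap.range (g - 1) ≤ W := by
      intro v hv
      obtain ⟨w, hw, u, hu, rfl⟩ := hdec v hv
      rw [h0, Submodule.mem_bot] at hu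
      rw [hu, add_zero]
      exact hw
    have := Submodule.finrank_mono hle
    omega
  obtain ⟨Z, hZW', hZg, hZnd, hZc⟩ := hblk _ hW'R hW'g hW'nd hW'0
  have hZo : ∀ z ∈ Z, ∀ x ∈ W, B x z = 0 := fun z hz x hx =>
    hB.mem_orth.1 (Submodule.mem_inf.1 (hZW' hz)).1 x hx
  refine ⟨W ⊔ Z, sup_le hWR (hZW'.trans hW'R), ?_, ?_, ?_⟩
  · rw [Submodule.map_sup]
    exact sup_le_sup hWg hZg
  · rintro ⟨v, hv⟩ h
    apply Subtype.ext
    obtain ⟨w, hw, z, hz, rfl⟩ := Submodule.mem_sup.mp hv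
    have hw0 : (⟨w, hw⟩ : W) = 0 := by
      apply hWnd
      rintro ⟨x, hx⟩
      have h1 := h ⟨x, (le_sup_left : W ≤ W ⊔ Z) hx⟩
      change B (w + z) x = 0 at h1
      rw [hB.add_left, hB.refl (hZo z hz x hx), add_zero] at h1
      exact h1
    have hz0 : (⟨z, hz⟩ : Z) = 0 := by
      apply hZnd
      rintro ⟨t, ht⟩
      have h1 := h ⟨t, (le_sup_right : Z ≤ W ⊔ Z) ht⟩
      change B (w + z) t = 0 at h1
      rw [hB.add_left, hZo t ht w hw, zero_add] at h1
      exact h1
    have hw0' : w = 0 := congrArg Subtype.val hw0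
    have hz0' : z = 0 := congrArg Subtype.val hz0
    change w + z = 0
    rw [hw0', hz0', add_zero]
  · have hinf : W ⊓ Z = ⊥ := by
      rw [eq_bot_iff]
      intro x hx
      have hx' := Submodule.mem_inf.1 hx
      have h0 : (⟨x, hx'.1⟩ : W) = 0 := by
        apply hWnd
        rintro ⟨t, ht⟩
        exact hB.refl (hZo x hx'.2 t ht)
      exact (Submodule.mem_bot F).2 (congrArg Subtype.val h0)
    have h := Submodule.finrank_sup_add_finrank_inf_eq W Z
    rw [hinf, finrank_bot, add_zero] at h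
    rw [h, hZc]

/-- Iteration of `exr_step`: `n` blocks of dimension `c`. -/
theorem exr_iter (hB : IsSForm (RingHom.id F) 1 B) (g : Module.End F V)
    (hgi : ∀ x y, B (g x) (g y) = B x y) (r : ℕ) (hr : 0 < r) (hg : g ^ r = 1)
    (hRnd : Nondeg (resForm B (LinearMap.range (g - 1)))) (c : ℕ)
    (hblk : ∀ W : Submodule F V, W ≤ LinearMap.range (g - 1) → W.map g ≤ W →
      Nondeg (resForm B W) → W ≠ ⊥ →
      ∃ Z : Submodule F V, Z ≤ W ∧ Z.map g ≤ Z ∧ Nondeg (resForm B Z) ∧ finrank F Z = c)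
    (n : ℕ) (hn : c * n ≤ finrank F (LinearMap.range (g - 1))) :
    ∃ W₁ : Submodule F V, W₁ ≤ LinearMap.range (g - 1) ∧ W₁.map g ≤ W₁ ∧
      Nondeg (resForm B W₁) ∧ finrank F W₁ = c * n := by
  induction n with
  | zero =>
    refine ⟨⊥, bot_le, ?_, ?_, ?_⟩
    · rw [Submodule.map_bot]
    · intro x _
      exact Subsingleton.elim _ _
    · rw [finrank_bot, mul_zero]
  | succ n ih =>
    by_cases hc0 : c = 0
    · refine ⟨⊥, bot_le, ?_, ?_, ?_⟩
      · rw [Submodule.map_bot]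
      · intro x _
        exact Subsingleton.elim _ _
      · rw [finrank_bot, hc0, zero_mul]
    · have hcn : c * n ≤ c * (n + 1) := Nat.mul_le_mul_left c (Nat.le_succ n)
      obtain ⟨W, hWR, hWg, hWnd, hWf⟩ := ih (hcn.trans hn)
      have hlt : finrank F W < finrank F (LinearMap.range (g - 1)) := by
        rw [hWf]
        have h1 : c * (n + 1) = c * n + c := Nat.mul_succ c n
        omega
      obtain ⟨W₂, h1, h2, h3, h4⟩ := exr_step hB g hgi r hr hg hRnd c hblk W hWR hWg hWnd hlt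
      refine ⟨W₂, h1, h2, h3, ?_⟩
      rw [h4, hWf, Nat.mul_succ]

/-- EXR, with the block lemmas BLKE (`hE`) and BLKO (`hO`) as hypotheses. -/
theorem rnd_exists_of (hQ : IsQuad Q B) (hnd : Nondeg B) (p : ℕ) [Fact p.Prime] [CharP F p]
    (r : ℕ) (hr : r.Prime) (hrp : r ≠ p) (g : Module.End F V) (hgQ : QI Q g)
    (hg : g ^ r = 1)
    (hE : Even (orderOf ((Fintype.card F : ℕ) : ZMod r)) →
      ∀ W : Submodule F V, W ≤ LinearMap.range (g - 1) → W.map g ≤ W →
        Nondeg (resForm B W) → W ≠ ⊥ →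
        ∃ Z : Submodule F V, Z ≤ W ∧ Z.map g ≤ Z ∧ Nondeg (resForm B Z) ∧
          finrank F Z = orderOf ((Fintype.card F : ℕ) : ZMod r))
    (hO : Odd (orderOf ((Fintype.card F : ℕ) : ZMod r)) →
      ∀ W : Submodule F V, W ≤ LinearMap.range (g - 1) → W.map g ≤ W →
        Nondeg (resForm B W) → W ≠ ⊥ →
        ∃ Z : Submodule F V, Z ≤ W ∧ Z.map g ≤ Z ∧ Nondeg (resForm B Z) ∧
          finrank F Z = 2 * orderOf ((Fintype.card F : ℕ) : ZMod r))
    (j : ℕ)
    (hj : orderOf ((Fintype.card F : ℕ) : ZMod r) * j ≤ finrank F (LinearMap.range (g - 1)))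
    (hjo : Odd (orderOf ((Fintype.card F : ℕ) : ZMod r)) → Even j) :
    ∃ W₁ : Submodule F V, W₁ ≤ LinearMap.range (g - 1) ∧ W₁.map g ≤ W₁ ∧
      Nondeg (resForm B W₁) ∧
      finrank F W₁ = orderOf ((Fintype.card F : ℕ) : ZMod r) * j := by
  have hB := hQ.form
  have hgi : ∀ x y, B (g x) (g y) = B x y := fun x y => hQ.isometry hQ g hgQ x y
  have hrF : (r : F) ≠ 0 := by
    intro h0
    rw [CharP.cast_eq_zero_iff F p r] at h0
    exact hrp ((Nat.prime_dvd_prime_iff_eq (Fact.out : p.Prime) hr).1 h0).symm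
  have hRnd := nondeg_res_range hB hnd g hgi r hrF hg
  by_cases he : Even (orderOf ((Fintype.card F : ℕ) : ZMod r))
  · exact exr_iter hB g hgi r hr.pos hg hRnd _ (hE he) j hj
  · have ho : Odd (orderOf ((Fintype.card F : ℕ) : ZMod r)) := Nat.not_even_iff_odd.1 he
    obtain ⟨n, hn⟩ := hjo ho
    have e : orderOf ((Fintype.card F : ℕ) : ZMod r) * j =
        2 * orderOf ((Fintype.card F : ℕ) : ZMod r) * n := by
      rw [hn]
      ring
    rw [e] at hj ⊢
    exact exr_iter hB g hgi r hr.pos hg hRnd _ (hO ho) n hj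

end Cfsg.Agent.Lib.Helper98.H74
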