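import Mathlib
import Cfsg.Prelude.Def_Blocks
import Cfsg.Prelude.Def_BlockLocal
import Cfsg.Agent.Lib.Helper22.Cover
import Cfsg.Agent.Lib.Helper84.Stab
import Cfsg.Agent.Lib.Helper30.Cores
import Cfsg.Agent.S0906
import Cfsg.Agent.S0908
import Cfsg.Agent.S0912
import Cfsg.Agent.S0917
import Cfsg.Agent.S4437

/-!
# The inertial quotient of a block with abelian / Klein four defect group (helper33)
-/

set_option autoImplicit false
set_option linter.style.haveILetI false
set_option warn.classDefReducibility false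

namespace Cfsg.Agent.Lib.Helper33.Klein

open Cfsg Cfsg.Agent.Lib Cfsg.Agent.Lib.Helper4 Cfsg.Agent.Lib.Helper21 Cfsg.Agent.Lib.Helper22
open Cfsg.Agent.Lib.Helper20
open scoped ComplexConjugate

section Inertial

/-- For a block with abelian defect group `P` and root `c`, the stabilizer `T` of `c` in
`N_G(P)` contains `C_G(P)` with index prime to `p`; moreover `c` has defect group `P`. -/
theorem inertial_facts {G : Type*} [Group G] [Finite G] (p : ℕ) [Fact p.Prime]
    (M : Ideal Cfsg.AlgInt) (hM : Cfsg.IsPModular p M) (B : Set (Cfsg.IrrCharacter G))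
    (hB : Cfsg.IsPBlock M B) (P : Subgroup G) (hPD : Cfsg.IsDefectGroup p M B P)
    (hPcomm : ∀ x ∈ P, ∀ y ∈ P, x * y = y * x)
    (c : Set (Cfsg.IrrCharacter (Subgroup.centralizer (P : Set G))))
    (hc : Cfsg.IsInducedBlock M (Subgroup.centralizer (P : Set G)) c B) (T : Subgroup G)
    (hT : ∀ g : G, g ∈ T ↔ (g ∈ Subgroup.normalizer (P : Set G) ∧
      Cfsg.StabilizesBlock (Subgroup.centralizer (P : Set G)) c g)) :
    ¬ p ∣ (Subgroup.centralizer (P : Set G)).relIndex T ∧
      T ≤ Subgroup.normalizer (P : Set G) ∧ Subgroup.centralizer (P : Set G) ≤ T := by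
  classical
  have hp : p.Prime := Fact.out
  let _ := Fintype.ofFinite G
  obtain ⟨hcb, -, -⟩ := id hc
  have hPp : IsPGroup p P := by
    obtain ⟨g, -, S, hS⟩ := hPD
    rw [hS]
    exact S.2.map _
  have hPC : P ≤ Subgroup.centralizer (P : Set G) := fun x hx =>
    Subgroup.mem_centralizer_iff.mpr (fun y hy => hPcomm y hy x hx)
  -- the defect group of `c`
  obtain ⟨gc, hgc⟩ := Cfsg.Agent.S0906.result p M hM c hcb
  obtain ⟨Sc⟩ : Nonempty (Sylow p (Subgroup.centralizer
      ({gc} : Set ↥(Subgroup.centralizer (P : Set G))))) := inferInstance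
  have hDc : IsDefectGroup p M c ((Sc : Subgroup _).map
      (Subgroup.centralizer ({gc} : Set ↥(Subgroup.centralizer (P : Set G)))).subtype) :=
    ⟨gc, hgc, Sc, rfl⟩
  generalize ((Sc : Subgroup _).map
      (Subgroup.centralizer ({gc} : Set ↥(Subgroup.centralizer (P : Set G)))).subtype) = Dc at hDc
  have hPn : (P.subgroupOf (Subgroup.centralizer (P : Set G))).Normal := by
    constructor
    intro x hx y
    rw [Subgroup.mem_subgroupOf] at hx ⊢
    have h1 := Subgroup.mem_centralizer_iff.mp y.2 (x : G) hx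
    have h2 : ((y * x * y⁻¹ : ↥(Subgroup.centralizer (P : Set G))) : G) = (x : G) := by
      show (y : G) * (x : G) * (y : G)⁻¹ = (x : G)
      rw [← h1]
      group
    rw [h2]
    exact hx
  have hPpc : IsPGroup p (P.subgroupOf (Subgroup.centralizer (P : Set G))) := hPp.comap_subtype
  have h1 : P.subgroupOf (Subgroup.centralizer (P : Set G)) ≤ Dc :=
    (Helper30.le_pCore_of_normal hPn hPpc).trans
      (Cfsg.Agent.S0912.result p M hM c hcb Dc hDc)
  obtain ⟨E, hE, hDE⟩ := Cfsg.Agent.S0917.result p M hM _ c hcb B hB hc Dc hDc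
  have hcardE : Nat.card E = Nat.card P := by
    rw [Cfsg.Agent.S0908.result p M hM B hB E hE, Cfsg.Agent.S0908.result p M hM B hB P hPD]
  have hPE : P ≤ E := by
    intro x hx
    apply hDE
    exact ⟨⟨x, hPC hx⟩, h1 (Subgroup.mem_subgroupOf.mpr hx), rfl⟩
  have hEP : E = P := (Subgroup.eq_of_le_of_card_ge hPE (le_of_eq hcardE)).symm
  have hcP : IsDefectGroup p M c (P.subgroupOf (Subgroup.centralizer (P : Set G))) := by
    have h2 : Dc = P.subgroupOf (Subgroup.centralizer (P : Set G)) := by
      apply le_antisymm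
      · intro x hx
        have h3 : ((Subgroup.centralizer (P : Set G)).subtype x) ∈ E := hDE ⟨x, hx, rfl⟩
        rw [hEP] at h3
        exact Subgroup.mem_subgroupOf.mpr h3
      · exact h1
    rw [← h2]
    exact hDc
  -- normalizer acts on the centralizer
  have hNC : ∀ g ∈ Subgroup.normalizer (P : Set G), ∀ x ∈ Subgroup.centralizer (P : Set G),
      g * x * g⁻¹ ∈ Subgroup.centralizer (P : Set G) := by
    intro g hg x hx
    rw [Subgroup.mem_centralizer_iff]
    intro y hy
    have hy' : g⁻¹ * y * g ∈ P := by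
      rw [Subgroup.mem_normalizer_iff.mp hg]
      have e : g * (g⁻¹ * y * g) * g⁻¹ = y := by group
      rw [e]
      exact hy
    have h1 := Subgroup.mem_centralizer_iff.mp hx _ hy'
    calc y * (g * x * g⁻¹) = g * ((g⁻¹ * y * g) * x) * g⁻¹ := by group
      _ = g * (x * (g⁻¹ * y * g)) * g⁻¹ := by rw [h1]
      _ = g * x * g⁻¹ * y := by group
  have hNC' : ∀ g ∈ Subgroup.normalizer (P : Set G), ∀ x ∈ Subgroup.centralizer (P : Set G),
      g⁻¹ * x * g ∈ Subgroup.centralizer (P : Set G) := by
    intro g hg x hx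
    have h1 := hNC g⁻¹ (inv_mem hg) x hx
    rwa [inv_inv] at h1
  have hT' : ∀ g : G, g ∈ T ↔ (g ∈ Subgroup.normalizer (P : Set G) ∧ ∀ θ ∈ c,
      ∀ θ' : IrrCharacter ↥(Subgroup.centralizer (P : Set G)),
      (∀ h h' : ↥(Subgroup.centralizer (P : Set G)), (h' : G) = g * h * g⁻¹ →
        (θ' : ↥(Subgroup.centralizer (P : Set G)) → ℂ) h' =
          (θ : ↥(Subgroup.centralizer (P : Set G)) → ℂ) h) → θ' ∈ c) := by
    intro g
    rw [hT g]
    constructor
    · rintro ⟨hg, -, hst⟩
      refine ⟨hg, fun θ hθ θ' hθ' => ?_⟩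
      obtain ⟨χ', hχ', hconj⟩ := hst θ hθ
      have h2 : θ' = χ' := by
        apply Subtype.ext
        funext k'
        have hk : g⁻¹ * (k' : G) * g ∈ Subgroup.centralizer (P : Set G) := hNC' g hg k' k'.2
        have e : (k' : G) = g * ((⟨g⁻¹ * (k' : G) * g, hk⟩ :
            ↥(Subgroup.centralizer (P : Set G))) : G) * g⁻¹ := by
          show (k' : G) = g * (g⁻¹ * (k' : G) * g) * g⁻¹
          group
        rw [hθ' ⟨_, hk⟩ k' e, hconj ⟨_, hk⟩ k' e]
      rw [h2]
      exact hχ'
    · rintro ⟨hg, hst⟩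
      refine ⟨hg, ?_, fun χ hχ => ?_⟩
      · rw [Subgroup.mem_normalizer_iff]
        intro x
        constructor
        · exact hNC g hg x
        · intro hx
          have h2 := hNC' g hg _ hx
          have e : g⁻¹ * (g * x * g⁻¹) * g = x := by group
          rwa [e] at h2
      · obtain ⟨e, he⟩ : ∃ e : ↥(Subgroup.centralizer (P : Set G)) ≃*
            ↥(Subgroup.centralizer (P : Set G)), ∀ x, ((e x : ↥(Subgroup.centralizer (P : Set G))) : G) =
              g⁻¹ * (x : G) * g :=
          ⟨Helper84.conjEquiv (Subgroup.centralizer (P : Set G)) g⁻¹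
            (fun x hx => by have h3 := hNC' g hg x hx; rwa [inv_inv])
            (fun x hx => by have h3 := hNC g hg x hx; rwa [inv_inv]),
            fun x => by rw [Helper84.conjEquiv_apply_coe, inv_inv]⟩
        have hconj : ∀ h h' : ↥(Subgroup.centralizer (P : Set G)), (h' : G) = g * h * g⁻¹ →
            (Helper84.trIrr e χ : ↥(Subgroup.centralizer (P : Set G)) → ℂ) h' =
              (χ : ↥(Subgroup.centralizer (P : Set G)) → ℂ) h := by
          intro h h' hh
          rw [Helper84.trIrr_apply]
          have e2 : e h' = h := by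
            apply Subtype.ext
            rw [he, hh]
            group
          rw [e2]
        exact ⟨_, hst χ hχ _ hconj, hconj⟩
  have hHeq : Subgroup.centralizer (P : Set G) = P ⊔ Subgroup.centralizer (P : Set G) :=
    (sup_eq_right.mpr hPC).symm
  let _ : Fintype ↥(Subgroup.centralizer (P : Set G)) := Fintype.ofFinite _
  have hrel : ¬ p ∣ (Subgroup.centralizer (P : Set G)).relIndex T :=
    (Cfsg.Agent.S4437.result p M hM P hPp (Subgroup.centralizer (P : Set G)) hHeq c hcb hcP B hc
      T hT').mp hPD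
  -- group theory
  have hTN : T ≤ Subgroup.normalizer (P : Set G) := fun t ht => ((hT t).mp ht).1
  have hCT : Subgroup.centralizer (P : Set G) ≤ T := by
    intro x hx
    rw [hT]
    refine ⟨Subgroup.centralizer_le_normalizer _ hx, Subgroup.le_normalizer hx,
      fun χ hχ => ⟨χ, hχ, ?_⟩⟩
    intro k k' hk
    have e : k' = ⟨x, hx⟩ * k * (⟨x, hx⟩ : ↥(Subgroup.centralizer (P : Set G)))⁻¹ :=
      Subtype.ext (by rw [hk]; rfl)
    rw [e]
    exact isClassFunction_irr χ k ⟨x, hx⟩
  exact ⟨hrel, hTN, hCT⟩

end Inertial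

section Act
variable {G : Type*} [Group G]

/-- The non-identity elements of `P`. -/
abbrev Om (P : Subgroup G) : Type _ := {y : G // y ∈ P ∧ y ≠ 1}

/-- The conjugation action of a subgroup of `N_G(P)` on the non-identity elements of `P`. -/
def omAction (P T : Subgroup G) (hTN : T ≤ Subgroup.normalizer (P : Set G)) :
    MulAction T (Om P) where
  smul t y := ⟨(t : G) * y.1 * (t : G)⁻¹,
    (Subgroup.mem_normalizer_iff.mp (hTN t.2) y.1).mp y.2.1,
    fun h => y.2.2 (conj_eq_one_iff.mp h)⟩
  one_smul y := Subtype.ext (by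
    show ((1 : T) : G) * y.1 * ((1 : T) : G)⁻¹ = y.1
    simp)
  mul_smul a b y := Subtype.ext (by
    show ((a * b : T) : G) * y.1 * ((a * b : T) : G)⁻¹ =
      (a : G) * ((b : G) * y.1 * (b : G)⁻¹) * (a : G)⁻¹
    rw [Subgroup.coe_mul]
    group)

theorem card_om [Finite G] (P : Subgroup G) (hcard : Nat.card P = 4) : Nat.card (Om P) = 3 := by
  have h1 : Nat.card (Om P) = ((P : Set G) \ {1}).ncard := by
    rw [← Nat.card_coe_set_eq]
    rfl
  rw [h1, Set.ncard_sdiff_singleton_of_mem (Subgroup.one_mem P)]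
  have h2 : (P : Set G).ncard = Nat.card P := rfl
  rw [h2, hcard]

theorem klein_inertial [Finite G] (P : Subgroup G) (hcard : Nat.card P = 4)
    (T : Subgroup G) (hTN : T ≤ Subgroup.normalizer (P : Set G))
    (hodd : ¬ 2 ∣ (Subgroup.centralizer (P : Set G)).relIndex T) :
    ((Subgroup.centralizer (P : Set G)).relIndex T = 1 ∨
      (Subgroup.centralizer (P : Set G)).relIndex T = 3) ∧
    ((Subgroup.centralizer (P : Set G)).relIndex T = 3 → ∀ y ∈ P, ∀ y' ∈ P, y ≠ 1 → y' ≠ 1 →
      ∃ t ∈ T, t * y * t⁻¹ = y') := by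
  classical
  letI := omAction P T hTN
  haveI : Finite (Om P) := Subtype.finite
  letI : Fintype (Om P) := Fintype.ofFinite _
  have hsmul : ∀ (t : T) (y : Om P), (t • y).1 = (t : G) * y.1 * (t : G)⁻¹ := fun _ _ => rfl
  have hker : (MulAction.toPermHom T (Om P)).ker =
      (Subgroup.centralizer (P : Set G)).subgroupOf T := by
    ext t
    rw [MonoidHom.mem_ker, Subgroup.mem_subgroupOf, Subgroup.mem_centralizer_iff]
    constructor
    · intro h y hy
      by_cases hy1 : y = 1
      · rw [hy1, mul_one, one_mul]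
      · have h1 := congrArg (fun σ : Equiv.Perm (Om P) => (σ ⟨y, hy, hy1⟩).1) h
        have h2 : (t : G) * y * (t : G)⁻¹ = y := h1
        calc y * (t : G) = ((t : G) * y * (t : G)⁻¹) * (t : G) := by rw [h2]
          _ = (t : G) * y := by group
    · intro h
      ext y
      show (t • y).1 = y.1
      rw [hsmul, ← h y.1 y.2.1]
      group
  have hidx : (MulAction.toPermHom T (Om P)).ker.index =
      (Subgroup.centralizer (P : Set G)).relIndex T := by
    rw [hker]
    rfl
  have hdvd : (Subgroup.centralizer (P : Set G)).relIndex T ∣ 6 := by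
    rw [← hidx, Subgroup.index_ker]
    have h1 := Subgroup.card_subgroup_dvd_card (MulAction.toPermHom T (Om P)).range
    rw [Nat.card_perm, card_om P hcard] at h1
    exact h1
  have hcases : (Subgroup.centralizer (P : Set G)).relIndex T = 1 ∨
      (Subgroup.centralizer (P : Set G)).relIndex T = 3 := by
    have h1 : (Subgroup.centralizer (P : Set G)).relIndex T ∈ Nat.divisors 6 :=
      Nat.mem_divisors.mpr ⟨hdvd, by norm_num⟩
    have h2 : Nat.divisors 6 = {1, 2, 3, 6} := by decide
    rw [h2] at h1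
    simp only [Finset.mem_insert, Finset.mem_singleton] at h1
    rcases h1 with h | h | h | h
    · exact Or.inl h
    · exact absurd (by rw [h]) hodd
    · exact Or.inr h
    · exact absurd (by rw [h]; norm_num) hodd
  refine ⟨hcases, fun h3 => ?_⟩
  -- orbits
  have horb : ∀ y : Om P, (MulAction.orbit T y).ncard = 1 ∨ (MulAction.orbit T y).ncard = 3 := by
    intro y
    have h1 : (MulAction.orbit T y).ncard ∣ 3 := by
      rw [← MulAction.index_stabilizer, ← h3, ← hidx]
      apply Subgroup.index_dvd_of_le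
      intro t ht
      rw [MulAction.mem_stabilizer_iff]
      have h2 := MonoidHom.mem_ker.mp ht
      have h4 := congrArg (fun σ : Equiv.Perm (Om P) => σ y) h2
      exact h4
    rcases (Nat.dvd_prime Nat.prime_three).mp h1 with h | h
    · exact Or.inl h
    · exact Or.inr h
  have hcardOm : Nat.card (Om P) = 3 := card_om P hcard
  have hall : ∀ y : Om P, (MulAction.orbit T y).ncard = 3 := by
    by_contra hcon
    push Not at hcon
    obtain ⟨y₀, hy₀⟩ := hcon
    have hy₀1 : (MulAction.orbit T y₀).ncard = 1 := (horb y₀).resolve_right hy₀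
    have hfix₀ : ∀ t : T, t • y₀ = y₀ := by
      intro t
      obtain ⟨a, ha⟩ := Set.ncard_eq_one.mp hy₀1
      have h1 : y₀ ∈ MulAction.orbit T y₀ := MulAction.mem_orbit_self y₀
      have h2 : t • y₀ ∈ MulAction.orbit T y₀ := MulAction.mem_orbit y₀ t
      rw [ha, Set.mem_singleton_iff] at h1 h2
      exact h2.trans h1.symm
    have hfix : ∀ (y : Om P) (t : T), t • y = y := by
      intro y t
      by_cases hy : y = y₀
      · rw [hy]; exact hfix₀ t
      · have h1 : (MulAction.orbit T y).ncard ≠ 3 := by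
          have hsub : MulAction.orbit T y ⊆ (Set.univ : Set (Om P)) \ {y₀} := by
            rintro _ ⟨s, rfl⟩
            refine ⟨Set.mem_univ _, ?_⟩
            rw [Set.mem_singleton_iff]
            intro h
            apply hy
            have h' : s • y = y₀ := h
            have h2 : s⁻¹ • (s • y) = s⁻¹ • y₀ := by rw [h']
            rw [inv_smul_smul, hfix₀] at h2
            exact h2
          have h2 := Set.ncard_le_ncard hsub (Set.toFinite _)
          rw [Set.ncard_sdiff_singleton_of_mem (Set.mem_univ _), Set.ncard_univ, hcardOm] at h2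
          omega
        have h2 : (MulAction.orbit T y).ncard = 1 := (horb y).resolve_right h1
        obtain ⟨a, ha⟩ := Set.ncard_eq_one.mp h2
        have h3 : y ∈ MulAction.orbit T y := MulAction.mem_orbit_self y
        have h4 : t • y ∈ MulAction.orbit T y := MulAction.mem_orbit y t
        rw [ha, Set.mem_singleton_iff] at h3 h4
        exact h4.trans h3.symm
    have htop : (MulAction.toPermHom T (Om P)).ker = ⊤ := by
      rw [eq_top_iff]
      intro t _
      rw [MonoidHom.mem_ker]
      ext y
      exact congrArg Subtype.val (hfix y t)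
    rw [htop, Subgroup.index_top] at hidx
    omega
  intro y hy y' hy' hy1 hy'1
  have h1 : MulAction.orbit T (⟨y, hy, hy1⟩ : Om P) = Set.univ := by
    apply Set.eq_of_subset_of_ncard_le (Set.subset_univ _) _ (Set.toFinite _)
    rw [hall, Set.ncard_univ, hcardOm]
  have h2 : (⟨y', hy', hy'1⟩ : Om P) ∈ MulAction.orbit T (⟨y, hy, hy1⟩ : Om P) := by
    rw [h1]
    exact Set.mem_univ _
  obtain ⟨t, ht⟩ := h2
  exact ⟨(t : G), t.2, congrArg Subtype.val ht⟩
end Act

end Cfsg.Agent.Lib.Helper33.Klein
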