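import Cfsg.Agent.Lib.Helper22.PTDefs

set_option autoImplicit false

/-! Project PT (helper22, S4705), piece KAP2 (helper33): evaluate the decomposition of `ζ²` at a
`p`-regular element. -/

namespace Cfsg.Agent.Lib.Helper33.PT

open Cfsg Cfsg.Agent.Lib.Helper22.BFD Cfsg.Agent.Lib.Helper22.PT
open scoped ComplexConjugate

universe u

variable {G : Type u} [Group G] [Fintype G]

theorem kap2_count (p : ℕ) [Fact p.Prime] (hp2 : p ≠ 2) :
    ∑ k : (ZMod p)ˣ, (if (k : ZMod p) = 2 ∨ (k : ZMod p) = -2 then (1 : ℂ) else 2) =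
      2 * ((p : ℂ) - 2) := by
  classical
  have hp : p.Prime := Fact.out
  have h2 : (2 : ZMod p) ≠ 0 := by
    intro h
    have h' : ((2 : ℕ) : ZMod p) = 0 := by exact_mod_cast h
    rw [ZMod.natCast_eq_zero_iff] at h'
    exact hp2 ((Nat.prime_dvd_prime_iff_eq hp Nat.prime_two).mp h')
  have h4 : (2 : ZMod p) ≠ -2 := by
    intro h
    have h5 : (2 : ZMod p) * 2 = 0 := by
      have : (2 : ZMod p) + 2 = 0 := by nth_rewrite 2 [h]; ring
      rw [← this]; ring
    rcases mul_eq_zero.mp h5 with h6 | h6 <;> exact h2 h6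
  have hsplit : ∀ k : (ZMod p)ˣ,
      (if (k : ZMod p) = 2 ∨ (k : ZMod p) = -2 then (1 : ℂ) else 2) =
        2 - (if k = Units.mk0 2 h2 ∨ k = -Units.mk0 2 h2 then (1 : ℂ) else 0) := by
    intro k
    have hiff : ((k : ZMod p) = 2 ∨ (k : ZMod p) = -2) ↔
        (k = Units.mk0 2 h2 ∨ k = -Units.mk0 2 h2) := by
      constructor
      · rintro (h | h)
        · left; exact Units.ext (by simpa using h)
        · right; exact Units.ext (by simpa using h)
      · rintro (h | h)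
        · left; rw [h]; rfl
        · right; rw [h]; simp
    by_cases hk : (k : ZMod p) = 2 ∨ (k : ZMod p) = -2
    · rw [if_pos hk, if_pos (hiff.mp hk)]; norm_num
    · rw [if_neg hk, if_neg (fun h => hk (hiff.mpr h))]; norm_num
  rw [Finset.sum_congr rfl (fun k _ => hsplit k), Finset.sum_sub_distrib, Finset.sum_const,
    Finset.card_univ, ZMod.card_units, nsmul_eq_mul]
  have hcnt : ∑ k : (ZMod p)ˣ,
      (if k = Units.mk0 2 h2 ∨ k = -Units.mk0 2 h2 then (1 : ℂ) else 0) = 2 := by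
    rw [Finset.sum_ite, Finset.sum_const_zero, add_zero, Finset.sum_const, nsmul_eq_mul, mul_one]
    have hset : Finset.filter (fun k : (ZMod p)ˣ => k = Units.mk0 2 h2 ∨ k = -Units.mk0 2 h2)
        Finset.univ = {Units.mk0 2 h2, -Units.mk0 2 h2} := by
      ext k
      simp
    rw [hset, Finset.card_pair]
    · norm_num
    · intro h
      apply h4
      have := congrArg (fun x : (ZMod p)ˣ => (x : ZMod p)) h
      simpa using this
  rw [hcnt]
  have hp1 : 1 ≤ p := hp.one_lt.le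
  push_cast [Nat.cast_sub hp1]
  ring

/-- PIECE KAP2 -/
theorem kap2 (p : ℕ) [Fact p.Prime] (hp2 : p ≠ 2) (w : ℂ) (z : G) (ζ : G → ℂ) (s : ℕ)
    (η : G → ℂ) (u : ZMod p) (χ₁ χ₂ : IrrCharacter G) (Y : (ZMod p)ˣ → IrrCharacter G)
    (hB : Blk G p w z η u χ₁ χ₂ Y) (hY1 : (Y 1).1 = fun g => ζ (g ^ s))
    (hsq2 : ∀ g, 2 * ζ g ^ 2 = ∑ k : (ZMod p)ˣ,
      (if (k : ZMod p) = 2 ∨ (k : ZMod p) = -2 then (1 : ℂ) else 2) * (Y k).1 g) :
    ∀ g, ¬ p ∣ orderOf g → ζ g ^ 2 = ((p : ℂ) - 2) * ζ (g ^ s) := by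
  intro g hg
  have h1 : ∀ k : (ZMod p)ˣ, (Y k).1 g = ζ (g ^ s) := by
    intro k
    rw [hB.regY k g hg, hY1]
  have h2 := hsq2 g
  rw [Finset.sum_congr rfl (fun k _ => by rw [h1 k]), ← Finset.sum_mul, kap2_count p hp2] at h2
  have h3 : (2 : ℂ) ≠ 0 := two_ne_zero
  apply mul_left_cancel₀ h3
  rw [h2]
  ring

end Cfsg.Agent.Lib.Helper33.PT
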