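import Mathlib
import Cfsg.Agent.Lib.Helper22.BrauerHom
import Cfsg.Agent.S0933
import Cfsg.Agent.Lib.Helper22.Cover

/-!
# Induced blocks from a centralizer of a `p`-subgroup, via the Brauer map (helper33)
-/

set_option autoImplicit false

namespace Cfsg.Agent.Lib.Helper33

open Cfsg Cfsg.Agent.Lib.Helper4 Cfsg.Agent.Lib.Helper21 Cfsg.Agent.Lib.Helper22

variable {G : Type*} [Group G] [Fintype G] {p : ℕ} [Fact p.Prime] {M : Ideal AlgInt}

omit [Fintype G] [Fact p.Prime] in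
theorem induced_eq_brauer_of_le_centralizer (R H : Subgroup G) [Fintype H]
    (hHC : H ≤ Subgroup.centralizer (R : Set G)) (ξ : H → ℂ) (g : G) :
    inducedCentralChar H ξ g = brauerCentralChar R H ξ g := by
  classical
  rw [Cfsg.Agent.S0933.inducedCentralChar_eq_sum, brauerCentralChar_eq_sum]
  refine Finset.sum_congr rfl fun h _ => ?_
  by_cases h1 : IsConj g (h : G)
  · rw [if_pos h1, if_pos ⟨h1, hHC h.2⟩]
  · rw [if_neg h1, if_neg (fun hc => h1 hc.1)]

theorem induced_of_brauer (hM : IsPModular p M) (R H : Subgroup G) [Fintype H]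
    (hHC : H ≤ Subgroup.centralizer (R : Set G)) (ξ₀ : IrrCharacter H) (χ : IrrCharacter G)
    (hχ : ∀ a, IsLocClass M a →
      MemLocalIdeal M (omega (ξ₀ : H → ℂ) (brRes R H a) - omega (χ : G → ℂ) a)) :
    IsInducedBlock M H (blockOf M (ξ₀ : H → ℂ)) (blockOf M (χ : G → ℂ)) := by
  have := pmod_isPrime hM
  refine ⟨⟨ξ₀, rfl⟩, ⟨χ, rfl⟩, fun ξ hξ χ' hχ' g => ?_⟩
  have c1 := Cfsg.Agent.S0933.induced_sub_mem M H (ξ₀ : H → ℂ) (ξ : H → ℂ)
    (isClassFunction_irr ξ₀) (isClassFunction_irr ξ) hξ g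
  have c3 := hχ (classInd g) (isLocClass_classInd hM g)
  rw [omega_brRes_classInd, omega_classInd _ (isClassFunction_irr χ),
    ← induced_eq_brauer_of_le_centralizer R H hHC] at c3
  have c5 := hχ' g
  have h := locIdeal_add hM (locIdeal_add hM c1 c3) c5
  have e : inducedCentralChar H (ξ : H → ℂ) g - inducedCentralChar H (ξ₀ : H → ℂ) g +
      (inducedCentralChar H (ξ₀ : H → ℂ) g - centralChar (χ : G → ℂ) g) +
      (centralChar (χ : G → ℂ) g - centralChar (χ' : G → ℂ) g) =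
      inducedCentralChar H (ξ : H → ℂ) g - centralChar (χ' : G → ℂ) g := by ring
  rwa [e] at h

theorem omega_brRes_of_induced (hM : IsPModular p M) (R H : Subgroup G) [Fintype H]
    (hR : IsPGroup p R) (hCH : Subgroup.centralizer (R : Set G) ≤ H)
    (hHC : H ≤ Subgroup.centralizer (R : Set G)) (f : Set (IrrCharacter H))
    (B : Set (IrrCharacter G)) (hfB : IsInducedBlock M H f B) (ξ : IrrCharacter H) (hξ : ξ ∈ f) :
    MemLocalIdeal M (omega (ξ : H → ℂ) (brRes R H (blockCoeff B)) - 1) := by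
  have hHN : H ≤ Subgroup.normalizer (R : Set G) :=
    hHC.trans (Subgroup.centralizer_le_normalizer _)
  obtain ⟨χ₁, hχ₁⟩ := exists_irr_brauer hM R H hR hCH hHN ξ
  have hind := induced_of_brauer hM R H hHC ξ χ₁ hχ₁
  obtain ⟨hf, hB, hfB'⟩ := hfB
  obtain ⟨χ', rfl⟩ := hB
  have hsame : SameBlock M (χ₁ : G → ℂ) (χ' : G → ℂ) := by
    intro g
    have h1 := hind.2.2 ξ (mem_blockOf_self hM ξ) χ₁ (mem_blockOf_self hM χ₁) g
    have h2 := hfB' ξ hξ χ' (mem_blockOf_self hM χ') g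
    have h3 := locIdeal_sub hM h1 h2
    have e : inducedCentralChar H (ξ : H → ℂ) g - centralChar (χ₁ : G → ℂ) g -
        (inducedCentralChar H (ξ : H → ℂ) g - centralChar (χ' : G → ℂ) g) =
        -(centralChar (χ₁ : G → ℂ) g - centralChar (χ' : G → ℂ) g) := by ring
    rw [e] at h3
    have h4 := locIdeal_neg h3
    rwa [neg_neg] at h4
  have hmem : χ₁ ∈ blockOf M (χ' : G → ℂ) := by
    rw [blockOf_eq_of_sameBlock hM hsame]
    exact mem_blockOf_self hM χ₁
  have h4 := hχ₁ (blockCoeff (blockOf M (χ' : G → ℂ))) (isLocClass_blockCoeff hM _ ⟨χ', rfl⟩)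
  rw [omega_blockCoeff, if_pos hmem] at h4
  exact h4

theorem induced_of_omega_brRes (hM : IsPModular p M) (R H : Subgroup G) [Fintype H]
    (hR : IsPGroup p R) (hCH : Subgroup.centralizer (R : Set G) ≤ H)
    (hHC : H ≤ Subgroup.centralizer (R : Set G))
    (B : Set (IrrCharacter G)) (hB : IsPBlock M B) (ξ : IrrCharacter H)
    (hξ : ¬ MemLocalIdeal M (omega (ξ : H → ℂ) (brRes R H (blockCoeff B)))) :
    IsInducedBlock M H (blockOf M (ξ : H → ℂ)) B := by
  have hHN : H ≤ Subgroup.normalizer (R : Set G) :=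
    hHC.trans (Subgroup.centralizer_le_normalizer _)
  obtain ⟨χ₁, hχ₁⟩ := exists_irr_brauer hM R H hR hCH hHN ξ
  have h4 := hχ₁ (blockCoeff B) (isLocClass_blockCoeff hM B hB)
  rw [omega_blockCoeff] at h4
  have hmem : χ₁ ∈ B := by
    by_contra hn
    rw [if_neg hn, sub_zero] at h4
    exact hξ h4
  obtain ⟨χ', rfl⟩ := hB
  have h5 : blockOf M (χ₁ : G → ℂ) = blockOf M (χ' : G → ℂ) := blockOf_eq_of_sameBlock hM hmem
  rw [← h5]
  exact induced_of_brauer hM R H hHC ξ χ₁ hχ₁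

end Cfsg.Agent.Lib.Helper33
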