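import Mathlib
import Cfsg.Agent.Lib.Helper22.BrauerHom
import Cfsg.Agent.Lib.Helper33.Fong

/-!
# The Brauer map on the idempotent of an invariant character of a normal `p'`-subgroup (helper33)
-/

set_option autoImplicit false

namespace Cfsg.Agent.Lib.Helper33

open Cfsg Cfsg.Agent.Lib Cfsg.Agent.Lib.Helper4 Cfsg.Agent.Lib.Helper21 Cfsg.Agent.Lib.Helper22 Cfsg.Agent.Lib.Helper20
open scoped ComplexConjugate

section Res

variable {G : Type*} [Group G]

/-- Restriction of a function on `G` to `K ∩ H`, seen as a subgroup of `H`. -/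
def resHN (K H : Subgroup G) (E : G → ℂ) : ↥(K.subgroupOf H) → ℂ := fun k => E ((k : H) : G)

theorem resHN_apply (K H : Subgroup G) (E : G → ℂ) (k : ↥(K.subgroupOf H)) :
    resHN K H E k = E ((k : H) : G) := rfl

variable [Fintype G] {p : ℕ} {M : Ideal AlgInt}

/-- The Brauer map is multiplicative modulo the local ideal on `R`-invariant functions
supported on `K`. -/
theorem brauer_conv_res (hM : IsPModular p M) (K R H : Subgroup G) [Fintype ↥(K.subgroupOf H)]
    (hR : IsPGroup p R) (hCH : Subgroup.centralizer (R : Set G) ≤ H)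
    (hHC : H ≤ Subgroup.centralizer (R : Set G)) {A E : G → ℂ}
    (hA : ∀ r ∈ R, ∀ g, A (r * g * r⁻¹) = A g) (hAl : ∀ g, MemLocalRing M (A g))
    (hAK : ∀ g, g ∉ K → A g = 0)
    (hE : ∀ r ∈ R, ∀ g, E (r * g * r⁻¹) = E g) (hEl : ∀ g, MemLocalRing M (E g))
    (k : ↥(K.subgroupOf H)) :
    MemLocalIdeal M (conv A E ((k : H) : G) - conv (resHN K H A) (resHN K H E) k) := by
  classical
  have hh : ((k : H) : G) ∈ Subgroup.centralizer (R : Set G) := hHC (k : H).2
  have e1 : conv (resHN K H A) (resHN K H E) k =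
      ∑ u : G, if u ∈ Subgroup.centralizer (R : Set G) then
        A u * E (u⁻¹ * ((k : H) : G)) else 0 := by
    rw [conv_apply]
    refine Fintype.sum_of_injective (fun u : ↥(K.subgroupOf H) => ((u : H) : G))
      (fun a b hab => Subtype.ext (Subtype.ext hab)) _ _ ?_ ?_
    · intro u hu
      by_cases huc : u ∈ Subgroup.centralizer (R : Set G)
      · rw [if_pos huc]
        have huK : u ∉ K := fun hK' =>
          hu ⟨⟨⟨u, hCH huc⟩, Subgroup.mem_subgroupOf.mpr hK'⟩, rfl⟩
        rw [hAK u huK, zero_mul]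
      · rw [if_neg huc]
    · intro u
      rw [if_pos (hHC (u : H).2)]
      simp [resHN]
  have e2 : conv A E ((k : H) : G) - conv (resHN K H A) (resHN K H E) k =
      ∑ u : G, if u ∈ Subgroup.centralizer (R : Set G) then 0 else
        A u * E (u⁻¹ * ((k : H) : G)) := by
    rw [e1, conv_apply, ← Finset.sum_sub_distrib]
    refine Finset.sum_congr rfl fun u _ => ?_
    split_ifs <;> simp
  rw [e2]
  letI : MulAction R G := MulAction.compHom G ((MulAut.conj : G →* MulAut G).comp R.subtype)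
  have hsmul : ∀ (r : R) (x : G), r • x = (r : G) * x * (r : G)⁻¹ := fun r x => rfl
  refine sum_locIdeal_of_pgroup_action hM hR _ ?_ ?_ ?_
  · intro r u
    have hrN : (r : G) ∈ Subgroup.normalizer (R : Set G) := Subgroup.le_normalizer r.2
    have e3 : (r • u ∈ Subgroup.centralizer (R : Set G)) ↔
        u ∈ Subgroup.centralizer (R : Set G) := by
      rw [hsmul]
      exact conj_mem_centralizer_iff_of_mem_normalizer R hrN
    have hrh : (r : G) * ((k : H) : G) = ((k : H) : G) * (r : G) :=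
      Subgroup.mem_centralizer_iff.mp hh r r.2
    have e4 : (r • u)⁻¹ * ((k : H) : G) = (r : G) * (u⁻¹ * ((k : H) : G)) * (r : G)⁻¹ := by
      rw [hsmul]
      calc ((r : G) * u * (r : G)⁻¹)⁻¹ * ((k : H) : G)
          = (r : G) * u⁻¹ * ((r : G)⁻¹ * (((k : H) : G) * (r : G))) * (r : G)⁻¹ := by group
        _ = (r : G) * (u⁻¹ * ((k : H) : G)) * (r : G)⁻¹ := by rw [← hrh]; group
    simp only [e3, e4]
    rw [hsmul, hA r r.2, hE r r.2]
  · intro u
    split_ifs
    · exact locRing_zero hM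
    · exact locRing_mul hM (hAl _) (hEl _)
  · intro u hu
    have huc : u ∈ Subgroup.centralizer (R : Set G) := by
      rw [Subgroup.mem_centralizer_iff]
      intro y hy
      have h2 := hu ⟨y, hy⟩
      rw [hsmul] at h2
      have h3 : y * u * y⁻¹ = u := h2
      calc y * u = y * u * y⁻¹ * y := by group
        _ = u * y := by rw [h3]
    rw [if_pos huc]
    exact locIdeal_zero hM

end Res

section Fusion

/-- Elements of the centralizer of a `p`-subgroup `R` that are conjugate under a normal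
`p'`-subgroup `K` are conjugate under `C_K(R)`. -/
theorem fusion_centralizer {G : Type*} [Group G] [Finite G] {p : ℕ} [Fact p.Prime]
    (K : Subgroup G) [hK : K.Normal] (hpK : ¬ p ∣ Nat.card K) (R : Subgroup G)
    (hR : IsPGroup p R) (c₀ c₁ : G) (hc₀ : c₀ ∈ Subgroup.centralizer (R : Set G))
    (hc₁ : c₁ ∈ Subgroup.centralizer (R : Set G)) (k₀ : G) (hk₀ : k₀ ∈ K)
    (h : k₀ * c₀ * k₀⁻¹ = c₁) :
    ∃ k ∈ K, k ∈ Subgroup.centralizer (R : Set G) ∧ k * c₀ * k⁻¹ = c₁ := by
  classical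
  letI : MulAction R K :=
    MulAction.compHom K ((MulAut.conjNormal : G →* MulAut K).comp R.subtype)
  have hsmul : ∀ (r : R) (k : K), ((r • k : K) : G) = (r : G) * (k : G) * (r : G)⁻¹ :=
    fun r k => rfl
  let X : SubMulAction R K :=
    { carrier := {k : K | (k : G) * c₀ * (k : G)⁻¹ = c₁}
      smul_mem' := by
        intro r k hk
        show ((r • k : K) : G) * c₀ * ((r • k : K) : G)⁻¹ = c₁
        rw [hsmul]
        have h0 : (r : G) * c₀ = c₀ * (r : G) := Subgroup.mem_centralizer_iff.mp hc₀ r r.2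
        have h1 : (r : G) * c₁ = c₁ * (r : G) := Subgroup.mem_centralizer_iff.mp hc₁ r r.2
        have hk' : (k : G) * c₀ * (k : G)⁻¹ = c₁ := hk
        have h0' : (r : G)⁻¹ * c₀ = c₀ * (r : G)⁻¹ := by
          calc (r : G)⁻¹ * c₀ = (r : G)⁻¹ * (c₀ * (r : G)) * (r : G)⁻¹ := by group
            _ = (r : G)⁻¹ * ((r : G) * c₀) * (r : G)⁻¹ := by rw [h0]
            _ = c₀ * (r : G)⁻¹ := by group
        calc (r : G) * (k : G) * (r : G)⁻¹ * c₀ * ((r : G) * (k : G) * (r : G)⁻¹)⁻¹
            = (r : G) * (k : G) * ((r : G)⁻¹ * c₀) * (r : G) * (k : G)⁻¹ * (r : G)⁻¹ := by group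
          _ = (r : G) * (k : G) * (c₀ * (r : G)⁻¹) * (r : G) * (k : G)⁻¹ * (r : G)⁻¹ := by
              rw [h0']
          _ = (r : G) * ((k : G) * c₀ * (k : G)⁻¹) * (r : G)⁻¹ := by group
          _ = (r : G) * c₁ * (r : G)⁻¹ := by rw [hk']
          _ = c₁ := by rw [h1]; group }
  have hXmem : ∀ k : K, k ∈ X ↔ (k : G) * c₀ * (k : G)⁻¹ = c₁ := fun k => Iff.rfl
  have hcard : ¬ p ∣ Nat.card X := by
    let Z : Subgroup K := (Subgroup.centralizer ({c₀} : Set G)).subgroupOf K
    have hZ : ∀ z : K, z ∈ Z ↔ (z : G) * c₀ = c₀ * (z : G) := by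
      intro z
      show (z : G) ∈ Subgroup.centralizer ({c₀} : Set G) ↔ _
      rw [Subgroup.mem_centralizer_iff]
      constructor
      · intro hz
        exact (hz c₀ rfl).symm
      · intro hz y hy
        rw [Set.mem_singleton_iff] at hy
        rw [hy, hz]
    let e : Z ≃ X :=
      { toFun := fun z => ⟨⟨k₀, hk₀⟩ * (z : K), by
          rw [hXmem]
          have hz := (hZ z).mp z.2
          show k₀ * (z : G) * c₀ * (k₀ * (z : G))⁻¹ = c₁
          calc k₀ * (z : G) * c₀ * (k₀ * (z : G))⁻¹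
              = k₀ * ((z : G) * c₀) * (z : G)⁻¹ * k₀⁻¹ := by group
            _ = k₀ * (c₀ * (z : G)) * (z : G)⁻¹ * k₀⁻¹ := by rw [hz]
            _ = k₀ * c₀ * k₀⁻¹ := by group
            _ = c₁ := h⟩
        invFun := fun x => ⟨⟨k₀, hk₀⟩⁻¹ * (x : K), by
          rw [hZ]
          have hx := (hXmem x).mp x.2
          show k₀⁻¹ * ((x : K) : G) * c₀ = c₀ * (k₀⁻¹ * ((x : K) : G))
          have h2 : ((x : K) : G) * c₀ = c₁ * ((x : K) : G) := by
            rw [← hx]; group
          calc k₀⁻¹ * ((x : K) : G) * c₀ = k₀⁻¹ * (((x : K) : G) * c₀) := by group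
            _ = k₀⁻¹ * (c₁ * ((x : K) : G)) := by rw [h2]
            _ = k₀⁻¹ * (k₀ * c₀ * k₀⁻¹ * ((x : K) : G)) := by rw [h]
            _ = c₀ * (k₀⁻¹ * ((x : K) : G)) := by group⟩
        left_inv := fun z => Subtype.ext (by simp)
        right_inv := fun x => Subtype.ext (by simp) }
    rw [← Nat.card_congr e]
    exact fun hdvd => hpK (dvd_trans hdvd (Subgroup.card_subgroup_dvd_card Z))
  obtain ⟨x, hx⟩ := hR.nonempty_fixed_point_of_prime_not_dvd_card X hcard
  refine ⟨((x : K) : G), (x : K).2, ?_, (hXmem x).mp x.2⟩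
  rw [Subgroup.mem_centralizer_iff]
  intro r hr
  have h2 := hx ⟨r, hr⟩
  have h3 : ((((⟨r, hr⟩ : R) • x : X) : K) : G) = ((x : K) : G) := by rw [h2]
  have h4 : r * ((x : K) : G) * r⁻¹ = ((x : K) : G) := h3
  calc r * ((x : K) : G) = r * ((x : K) : G) * r⁻¹ * r := by group
    _ = ((x : K) : G) * r := by rw [h4]

end Fusion

end Cfsg.Agent.Lib.Helper33
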