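import Mathlib
import Cfsg.Agent.Lib.Helper33.PTypeC
import Cfsg.Agent.Lib.Helper33.Graded

/-!
# The Brauer correspondent of an invariant character of a normal `p'`-subgroup (helper33)
-/

set_option autoImplicit false

namespace Cfsg.Agent.Lib.Helper33

open Cfsg Cfsg.Agent.Lib Cfsg.Agent.Lib.Helper4 Cfsg.Agent.Lib.Helper21 Cfsg.Agent.Lib.Helper22 Cfsg.Agent.Lib.Helper20
open scoped ComplexConjugate

section Kcl

variable {G : Type*} [Group G]

open scoped Classical in
/-- Indicator of the `K`-conjugacy class of `c₀`. -/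
noncomputable def kcl (K : Subgroup G) (c₀ : G) : G → ℂ :=
  fun g => if ∃ c ∈ K, c * g * c⁻¹ = c₀ then 1 else 0

open scoped Classical in
theorem kcl_apply (K : Subgroup G) (c₀ g : G) :
    kcl K c₀ g = if ∃ c ∈ K, c * g * c⁻¹ = c₀ then 1 else 0 := rfl

theorem kcl_conj (K : Subgroup G) [hK : K.Normal] (c₀ x : G) (hx : x * c₀ = c₀ * x) (g : G) :
    kcl K c₀ (x * g * x⁻¹) = kcl K c₀ g := by
  classical
  have hx' : x⁻¹ * c₀ * x = c₀ := by
    calc x⁻¹ * c₀ * x = x⁻¹ * (c₀ * x) := by group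
      _ = x⁻¹ * (x * c₀) := by rw [hx]
      _ = c₀ := by group
  have hx'' : x * c₀ * x⁻¹ = c₀ := by
    rw [hx]; group
  have e : (∃ c ∈ K, c * (x * g * x⁻¹) * c⁻¹ = c₀) ↔ (∃ c ∈ K, c * g * c⁻¹ = c₀) := by
    constructor
    · rintro ⟨c, hc, h⟩
      refine ⟨x⁻¹ * c * x, ?_, ?_⟩
      · have := hK.conj_mem c hc x⁻¹
        rwa [inv_inv] at this
      · calc x⁻¹ * c * x * g * (x⁻¹ * c * x)⁻¹ = x⁻¹ * (c * (x * g * x⁻¹) * c⁻¹) * x := by group
          _ = x⁻¹ * c₀ * x := by rw [h]
          _ = c₀ := hx'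
    · rintro ⟨c, hc, h⟩
      refine ⟨x * c * x⁻¹, hK.conj_mem c hc x, ?_⟩
      calc x * c * x⁻¹ * (x * g * x⁻¹) * (x * c * x⁻¹)⁻¹ = x * (c * g * c⁻¹) * x⁻¹ := by group
        _ = x * c₀ * x⁻¹ := by rw [h]
        _ = c₀ := hx''
  simp only [kcl_apply, e]

theorem kcl_loc {p : ℕ} {M : Ideal AlgInt} (hM : IsPModular p M) (K : Subgroup G) (c₀ g : G) :
    MemLocalRing M (kcl K c₀ g) := by
  classical
  rw [kcl_apply]
  split_ifs
  · exact locRing_one hM
  · exact locRing_zero hM

theorem kcl_support (K : Subgroup G) (c₀ : G) (hc₀ : c₀ ∈ K) (g : G) (hg : g ∉ K) :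
    kcl K c₀ g = 0 := by
  classical
  rw [kcl_apply, if_neg]
  rintro ⟨c, hc, h⟩
  apply hg
  have e : g = c⁻¹ * c₀ * c := by rw [← h]; group
  rw [e]
  exact K.mul_mem (K.mul_mem (K.inv_mem hc) hc₀) hc

theorem kcl_eq_ext [Fintype G] (K : Subgroup G) [Fintype K] (κ₀ : K) :
    kcl K (κ₀ : G) = extendByZero K (classInd κ₀) := by
  classical
  funext g
  by_cases hg : g ∈ K
  · rw [Helper46.extendByZero_of_mem K _ hg, classInd_apply, kcl_apply]
    have e : (∃ c ∈ K, c * g * c⁻¹ = (κ₀ : G)) ↔ IsConj (⟨g, hg⟩ : K) κ₀ := by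
      rw [isConj_iff]
      constructor
      · rintro ⟨c, hc, h⟩
        exact ⟨⟨c, hc⟩, Subtype.ext h⟩
      · rintro ⟨c, h⟩
        exact ⟨(c : G), c.2, congrArg Subtype.val h⟩
    by_cases h : IsConj (⟨g, hg⟩ : K) κ₀
    · rw [if_pos (e.mpr h), if_pos h]
    · rw [if_neg (fun h' => h (e.mp h')), if_neg h]
  · rw [Helper46.extendByZero_of_not_mem K _ hg, kcl_support K _ κ₀.2 g hg]

end Kcl

section Conv

variable {K : Type*} [Group K] [Fintype K]

/-- Multiplying a central element by the idempotent of `θ` gives a scalar multiple. -/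
theorem conv_blockCoeff_singleton (a : K → ℂ) (ha : IsClassFunction K a) (θ : IrrCharacter K) :
    conv a (blockCoeff ({θ} : Set (IrrCharacter K))) =
      omega (θ : K → ℂ) a • blockCoeff ({θ} : Set (IrrCharacter K)) := by
  classical
  have hcf2 : IsClassFunction K (omega (θ : K → ℂ) a • blockCoeff ({θ} : Set (IrrCharacter K))) := by
    intro g h
    simp only [Pi.smul_apply, blockCoeff_isClassFunction ({θ} : Set (IrrCharacter K)) g h]
  refine Helper22.eq_of_omega_eq _ _ (conv_isClassFunction ha (blockCoeff_isClassFunction _)) hcf2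
    (fun ψ => ?_)
  rw [omega_conv ψ _ _ ha (blockCoeff_isClassFunction _), omega_smul, omega_blockCoeff]
  by_cases h : ψ ∈ ({θ} : Set (IrrCharacter K))
  · rw [if_pos h, Set.mem_singleton_iff.mp h]
  · rw [if_neg h, mul_zero, mul_zero]

end Conv

section Main

variable {G : Type*} [Group G] [Fintype G] {p : ℕ} [Fact p.Prime] {M : Ideal AlgInt}

/-- Let `θ` be a `G`-invariant irreducible character of the normal `p'`-subgroup `K`, and let
`H = C_G(R)` for a `p`-subgroup `R`.  Then there is a unique irreducible character `η` of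
`K ∩ H` whose idempotent is congruent, modulo the local ideal, to the restriction of the
idempotent of `θ`; it is `H`-invariant. -/
theorem brauer_correspondent (hM : IsPModular p M) (K : Subgroup G) [hK : K.Normal] [Fintype K]
    (hpK : ¬ p ∣ Nat.card K) (θ : IrrCharacter K)
    (hinv : ∀ (g : G) (n : K),
      (θ : K → ℂ) ⟨g * n * g⁻¹, hK.conj_mem n n.2 g⟩ = (θ : K → ℂ) n)
    (R H : Subgroup G) [Fintype H] [Fintype ↥(K.subgroupOf H)] [hN : (K.subgroupOf H).Normal]
    (hR : IsPGroup p R) (hCH : Subgroup.centralizer (R : Set G) ≤ H)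
    (hHC : H ≤ Subgroup.centralizer (R : Set G)) :
    ∃ η : IrrCharacter ↥(K.subgroupOf H),
      (∀ (h : H) (n : ↥(K.subgroupOf H)),
        (η : ↥(K.subgroupOf H) → ℂ) ⟨h * n * h⁻¹, hN.conj_mem n n.2 h⟩ =
          (η : ↥(K.subgroupOf H) → ℂ) n) ∧
      ∀ k : ↥(K.subgroupOf H), MemLocalIdeal M
        (bG K ({θ} : Set (IrrCharacter K)) ((k : H) : G) -
          blockCoeff ({η} : Set (IrrCharacter ↥(K.subgroupOf H))) k) := by
  classical
  have hp : p.Prime := Fact.out
  obtain ⟨E, hEdef⟩ : ∃ E : G → ℂ, E = bG K ({θ} : Set (IrrCharacter K)) := ⟨_, rfl⟩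
  rw [← hEdef]
  have hEcf : IsClassFunction G E := by
    rw [hEdef]
    exact bG_singleton_isClassFunction K θ hinv
  have hEloc : ∀ g, MemLocalRing M (E g) := by
    rw [hEdef]
    exact bG_loc K hM {θ} (blockCoeff_singleton_locRing hM hpK θ)
  have hEE : conv E E = E := by
    rw [hEdef]
    exact conv_bG K {θ}
  have hEK : ∀ g, g ∉ K → E g = 0 := by
    intro g hg
    rw [hEdef]
    exact Helper46.extendByZero_of_not_mem K _ hg
  have hpN : ¬ p ∣ Nat.card ↥(K.subgroupOf H) := fun h =>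
    hpK (dvd_trans h (Subgroup.card_comap_dvd_of_injective K H.subtype Subtype.coe_injective))
  -- the restricted idempotent
  obtain ⟨ε, hεdef⟩ : ∃ ε : ↥(K.subgroupOf H) → ℂ, ε = resHN K H E := ⟨_, rfl⟩
  have hεapp : ∀ k : ↥(K.subgroupOf H), ε k = E ((k : H) : G) := fun k => by rw [hεdef]; rfl
  have hεcf : IsClassFunction ↥(K.subgroupOf H) ε := by
    intro n k
    rw [hεapp, hεapp]
    have h1 := hEcf ((n : H) : G) ((k : H) : G)
    have e : (((k * n * k⁻¹ : ↥(K.subgroupOf H)) : H) : G) =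
        ((k : H) : G) * ((n : H) : G) * ((k : H) : G)⁻¹ := by simp
    rw [e]
    exact h1
  have hεloc : ∀ k, MemLocalRing M (ε k) := fun k => by rw [hεapp]; exact hEloc _
  have hER : ∀ r ∈ R, ∀ g, E (r * g * r⁻¹) = E g := fun r _ g => hEcf g r
  -- idempotency modulo the ideal
  have hidem : ∀ k, MemLocalIdeal M (ε k - conv ε ε k) := by
    intro k
    have h1 := brauer_conv_res hM K R H hR hCH hHC hER hEloc hEK hER hEloc k
    rw [hEE, ← hεdef, ← hεapp] at h1
    exact h1
  have hω : ∀ η : IrrCharacter ↥(K.subgroupOf H),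
      MemLocalRing M (omega (η : ↥(K.subgroupOf H) → ℂ) ε) :=
    fun η => omega_locRing hM η ⟨hεcf, hεloc⟩
  have hωidem : ∀ η : IrrCharacter ↥(K.subgroupOf H), MemLocalIdeal M
      (omega (η : ↥(K.subgroupOf H) → ℂ) ε * (1 - omega (η : ↥(K.subgroupOf H) → ℂ) ε)) := by
    intro η
    have hcf : IsClassFunction ↥(K.subgroupOf H) (ε - conv ε ε) := by
      intro n k
      simp only [Pi.sub_apply, hεcf n k, (conv_isClassFunction hεcf hεcf) n k]
    have h1 := omega_locIdeal_of_forall hM _ hcf η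
      (fun k => locIdeal_mul_right hM (hidem k) (centralChar_locRing hM η k))
    rw [omega_sub, omega_conv η _ _ hεcf hεcf] at h1
    have e : omega (η : ↥(K.subgroupOf H) → ℂ) ε -
        omega (η : ↥(K.subgroupOf H) → ℂ) ε * omega (η : ↥(K.subgroupOf H) → ℂ) ε =
        omega (η : ↥(K.subgroupOf H) → ℂ) ε * (1 - omega (η : ↥(K.subgroupOf H) → ℂ) ε) := by
      ring
    rwa [e] at h1
  -- the class sums
  have hclass : ∀ (k₀ : ↥(K.subgroupOf H)) (η : IrrCharacter ↥(K.subgroupOf H)),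
      MemLocalIdeal M ((centralChar (θ : K → ℂ) ⟨((k₀ : H) : G), k₀.2⟩ -
        centralChar (η : ↥(K.subgroupOf H) → ℂ) k₀) *
          omega (η : ↥(K.subgroupOf H) → ℂ) ε) := by
    intro k₀ η
    obtain ⟨κ₀, hκ₀⟩ : ∃ κ₀ : K, κ₀ = ⟨((k₀ : H) : G), k₀.2⟩ := ⟨_, rfl⟩
    rw [← hκ₀]
    have hκ₀c : (κ₀ : G) = ((k₀ : H) : G) := by rw [hκ₀]
    have hAR : ∀ r ∈ R, ∀ g, kcl K (κ₀ : G) (r * g * r⁻¹) = kcl K (κ₀ : G) g := by
      intro r hr g
      refine kcl_conj K _ r ?_ g
      rw [hκ₀c]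
      exact Subgroup.mem_centralizer_iff.mp (hHC (k₀ : H).2) r hr
    have hconv : conv (kcl K (κ₀ : G)) E = centralChar (θ : K → ℂ) κ₀ • E := by
      rw [kcl_eq_ext K κ₀, hEdef]
      unfold bG
      rw [← ext_conv, conv_blockCoeff_singleton _ (classInd_isClassFunction κ₀) θ,
        omega_classInd _ (isClassFunction_irr θ), ext_smul]
    have hres : resHN K H (kcl K (κ₀ : G)) = classInd k₀ := by
      funext k
      rw [resHN_apply, kcl_apply, classInd_apply]
      have e : (∃ c ∈ K, c * ((k : H) : G) * c⁻¹ = (κ₀ : G)) ↔ IsConj k k₀ := by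
        rw [isConj_iff]
        constructor
        · rintro ⟨c, hc, h⟩
          rw [hκ₀c] at h
          obtain ⟨c', hc'K, hc'R, h'⟩ := fusion_centralizer K hpK R hR ((k : H) : G)
            ((k₀ : H) : G) (hHC (k : H).2) (hHC (k₀ : H).2) c hc h
          refine ⟨⟨⟨c', hCH hc'R⟩, Subgroup.mem_subgroupOf.mpr hc'K⟩, ?_⟩
          apply Subtype.ext
          apply Subtype.ext
          simpa using h'
        · rintro ⟨c, h⟩
          refine ⟨((c : H) : G), c.2, ?_⟩
          rw [hκ₀c, ← h]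
          simp
      by_cases h : IsConj k k₀
      · rw [if_pos (e.mpr h), if_pos h]
      · rw [if_neg (fun h' => h (e.mp h')), if_neg h]
    have hpt : ∀ k, MemLocalIdeal M
        (centralChar (θ : K → ℂ) κ₀ * ε k - conv (classInd k₀) ε k) := by
      intro k
      have h1 := brauer_conv_res hM K R H hR hCH hHC hAR (kcl_loc hM K _)
        (kcl_support K _ κ₀.2) hER hEloc k
      rw [hconv, hres, ← hεdef] at h1
      rw [hεapp]
      exact h1
    have hcf : IsClassFunction ↥(K.subgroupOf H)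
        (centralChar (θ : K → ℂ) κ₀ • ε - conv (classInd k₀) ε) := by
      intro n k
      simp only [Pi.sub_apply, Pi.smul_apply, hεcf n k,
        (conv_isClassFunction (classInd_isClassFunction k₀) hεcf) n k]
    have h1 := omega_locIdeal_of_forall hM _ hcf η
      (fun k => locIdeal_mul_right hM (hpt k) (centralChar_locRing hM η k))
    rw [omega_sub, omega_smul, omega_conv η _ _ (classInd_isClassFunction k₀) hεcf,
      omega_classInd _ (isClassFunction_irr η)] at h1
    have e : centralChar (θ : K → ℂ) κ₀ * omega (η : ↥(K.subgroupOf H) → ℂ) ε -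
        centralChar (η : ↥(K.subgroupOf H) → ℂ) k₀ * omega (η : ↥(K.subgroupOf H) → ℂ) ε =
        (centralChar (θ : K → ℂ) κ₀ - centralChar (η : ↥(K.subgroupOf H) → ℂ) k₀) *
          omega (η : ↥(K.subgroupOf H) → ℂ) ε := by ring
    rwa [e] at h1
  have := irr_finite (G := ↥(K.subgroupOf H))
  let _ := Fintype.ofFinite (IrrCharacter ↥(K.subgroupOf H))
  have hchloc : ∀ (η : IrrCharacter ↥(K.subgroupOf H)) (k : ↥(K.subgroupOf H)),
      MemLocalRing M ((η : ↥(K.subgroupOf H) → ℂ) 1 * conj ((η : ↥(K.subgroupOf H) → ℂ) k)) := by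
    intro η k
    rw [← irr_inv]
    exact locRing_mul hM (locRing_of_isIntegral hM (irr_isIntegral η 1))
      (locRing_of_isIntegral hM (irr_isIntegral η k⁻¹))
  -- existence
  have hex : ∃ η : IrrCharacter ↥(K.subgroupOf H),
      ¬ MemLocalIdeal M (omega (η : ↥(K.subgroupOf H) → ℂ) ε) := by
    by_contra hcon
    push Not at hcon
    have h1 := classFunction_fourier ε hεcf 1
    have h2 : MemLocalIdeal M (ε 1) := by
      rw [h1]
      refine locIdeal_mul_left hM (locRing_inv_natCast hM hpN)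
        (locIdeal_sum hM _ _ fun η _ => ?_)
      exact locIdeal_mul_right hM (hcon η) (hchloc η 1)
    have h3 : ε 1 = blockCoeff ({θ} : Set (IrrCharacter K)) 1 := by
      rw [hεapp, hEdef]
      have e : (((1 : ↥(K.subgroupOf H)) : H) : G) = ((1 : K) : G) := by simp
      rw [e]
      exact Helper46.extendByZero_coe K _ 1
    rw [h3] at h2
    exact blockCoeff_singleton_one_not_locIdeal hM hpK θ h2
  -- uniqueness
  have huniq : ∀ η₁ η₂ : IrrCharacter ↥(K.subgroupOf H),
      ¬ MemLocalIdeal M (omega (η₁ : ↥(K.subgroupOf H) → ℂ) ε) →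
      ¬ MemLocalIdeal M (omega (η₂ : ↥(K.subgroupOf H) → ℂ) ε) → η₂ = η₁ := by
    intro η₁ η₂ h1 h2
    have hsame : SameBlock M (η₁ : ↥(K.subgroupOf H) → ℂ) (η₂ : ↥(K.subgroupOf H) → ℂ) := by
      intro k₀
      have b1 := (locIdeal_of_mul hM (locRing_sub hM (centralChar_locRing hM θ _)
        (centralChar_locRing hM η₁ k₀)) (hω η₁) (hclass k₀ η₁)).resolve_right h1
      have b2 := (locIdeal_of_mul hM (locRing_sub hM (centralChar_locRing hM θ _)
        (centralChar_locRing hM η₂ k₀)) (hω η₂) (hclass k₀ η₂)).resolve_right h2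
      have h3 := locIdeal_sub hM b2 b1
      have e : centralChar (θ : K → ℂ) ⟨((k₀ : H) : G), k₀.2⟩ -
          centralChar (η₂ : ↥(K.subgroupOf H) → ℂ) k₀ -
          (centralChar (θ : K → ℂ) ⟨((k₀ : H) : G), k₀.2⟩ -
            centralChar (η₁ : ↥(K.subgroupOf H) → ℂ) k₀) =
          centralChar (η₁ : ↥(K.subgroupOf H) → ℂ) k₀ -
            centralChar (η₂ : ↥(K.subgroupOf H) → ℂ) k₀ := by ring
      rwa [e] at h3
    have hmem : η₂ ∈ blockOf M (η₁ : ↥(K.subgroupOf H) → ℂ) := hsame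
    rw [blockOf_eq_singleton hM hpN η₁] at hmem
    exact hmem
  obtain ⟨η, hη⟩ := hex
  have hη1 : MemLocalIdeal M (1 - omega (η : ↥(K.subgroupOf H) → ℂ) ε) :=
    (locIdeal_of_mul hM (hω η) (locRing_sub hM (locRing_one hM) (hω η))
      (hωidem η)).resolve_left hη
  refine ⟨η, ?_, ?_⟩
  · -- invariance
    intro h n
    have h1 : omega (conjFun (K.subgroupOf H) (η : ↥(K.subgroupOf H) → ℂ) h) ε =
        omega (η : ↥(K.subgroupOf H) → ℂ) ε := by
      have h2 := omega_conjFun (K.subgroupOf H) (η : ↥(K.subgroupOf H) → ℂ) ε h⁻¹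
      rw [inv_inv] at h2
      rw [← h2]
      congr 1
      funext k
      rw [conjFun_apply, hεapp, hεapp]
      have h3 := hEcf ((k : H) : G) ((h : H) : G)⁻¹
      rw [inv_inv] at h3
      rw [← h3]
      congr 1
      simp
    have h3 : irrConjFun (K.subgroupOf H) η h = η := by
      apply huniq η (irrConjFun (K.subgroupOf H) η h) hη
      rw [irrConjFun_coe, h1]
      exact hη
    have h4 := congrArg (fun φ : IrrCharacter ↥(K.subgroupOf H) =>
      (φ : ↥(K.subgroupOf H) → ℂ) n) h3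
    simp only [irrConjFun_coe] at h4
    rw [conjFun_apply] at h4
    exact h4
  · -- pointwise congruence
    intro k
    rw [← hεapp]
    have h1 := classFunction_fourier ε hεcf k
    rw [h1, blockCoeff_singleton, ← mul_sub]
    refine locIdeal_mul_left hM (locRing_inv_natCast hM hpN) ?_
    rw [← Finset.add_sum_erase Finset.univ _ (Finset.mem_univ η)]
    have e : ∀ (a b c : ℂ), a * b + c - b = (a - 1) * b + c := by intros; ring
    rw [e]
    refine locIdeal_add hM (locIdeal_mul_right hM ?_ (hchloc η k))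
      (locIdeal_sum hM _ _ fun φ hφ => ?_)
    · have h5 := locIdeal_neg hη1
      rwa [neg_sub] at h5
    · have hne : φ ≠ η := (Finset.mem_erase.mp hφ).1
      have hφ0 : MemLocalIdeal M (omega (φ : ↥(K.subgroupOf H) → ℂ) ε) := by
        by_contra hc
        exact hne (huniq η φ hη hc)
      exact locIdeal_mul_right hM hφ0 (hchloc φ k)

end Main

end Cfsg.Agent.Lib.Helper33
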