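import Mathlib
import Cfsg.Agent.Lib.Helper33.PTypeA
import Cfsg.Agent.Lib.Helper33.PTypeB
import Cfsg.Agent.Lib.Helper33.PTypeD
import Cfsg.Agent.S0631

/-!
# Blocks of principal type over an invariant character of `O_{p'}(G)`, `G` `p`-constrained
(helper33)
-/

set_option autoImplicit false

namespace Cfsg.Agent.Lib.Helper33

open Cfsg Cfsg.Agent.Lib Cfsg.Agent.Lib.Helper4 Cfsg.Agent.Lib.Helper21 Cfsg.Agent.Lib.Helper22 Cfsg.Agent.Lib.Helper20
open scoped ComplexConjugate

/-- A central element congruent to the idempotent of an invariant character `η` of a normal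
subgroup has central character values `1` on the characters over `η` and `0` elsewhere,
modulo the local ideal. -/
theorem omega_congr_idempotent {H : Type*} [Group H] [Fintype H] {p : ℕ} {M : Ideal AlgInt}
    (hM : IsPModular p M) (N : Subgroup H) [hN : N.Normal] [Fintype N] (η : IrrCharacter N)
    (hinv : ∀ (g : H) (n : N),
      (η : N → ℂ) ⟨g * n * g⁻¹, hN.conj_mem n n.2 g⟩ = (η : N → ℂ) n)
    (ε : H → ℂ) (hεcf : IsClassFunction H ε) (hεN : ∀ h, h ∉ N → ε h = 0)
    (hε : ∀ k : N, MemLocalIdeal M (ε (k : H) - blockCoeff ({η} : Set (IrrCharacter N)) k))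
    (ξ : IrrCharacter H) :
    MemLocalIdeal M (omega (ξ : H → ℂ) ε -
      if classInner (fun n : N => (ξ : H → ℂ) n) (η : N → ℂ) ≠ 0 then 1 else 0) := by
  have hcf := bG_singleton_isClassFunction N η hinv
  rw [← omega_bG_singleton N η hcf ξ, ← omega_sub]
  have hcf2 : IsClassFunction H (ε - bG N ({η} : Set (IrrCharacter N))) := by
    intro g h
    simp only [Pi.sub_apply, hεcf g h, hcf g h]
  refine omega_locIdeal_of_forall hM _ hcf2 ξ
    (fun h => locIdeal_mul_right hM ?_ (centralChar_locRing hM ξ h))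
  show MemLocalIdeal M (ε h - bG N ({η} : Set (IrrCharacter N)) h)
  by_cases hh : h ∈ N
  · have h1 := hε ⟨h, hh⟩
    unfold bG
    rw [Helper46.extendByZero_of_mem N _ hh]
    exact h1
  · unfold bG
    rw [hεN h hh, Helper46.extendByZero_of_not_mem N _ hh, sub_zero]
    exact locIdeal_zero hM

/-- In a `p`-constrained group, `O_{p'}(C_G(P)) ≤ O_{p'}(G)` for every `p`-subgroup `P`. -/
theorem pPrimeCore_centralizer_le {G : Type*} [Group G] [Finite G] {p : ℕ} [Fact p.Prime]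
    (hG : IsPConstrained p G) (P : Subgroup G) (hP : IsPGroup p P) (H : Subgroup G)
    (hCH : Subgroup.centralizer (P : Set G) ≤ H) (hHC : H ≤ Subgroup.centralizer (P : Set G)) :
    (pPrimeCore p ↥H).map H.subtype ≤ pPrimeCore p G := by
  have hc := Cfsg.Agent.S0631.centralizer_le_of_isPConstrained hG
  have hp : p.Prime := Fact.out
  have hXc : (Nat.card (pPrimeCore p ↥H)).Coprime p := Helper30.pPrimeCore_coprime p
  have hQn : (pCore p (G ⧸ pPrimeCore p G)).Normal := inferInstance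
  obtain ⟨X, hX⟩ : ∃ X : Subgroup G, X = (pPrimeCore p ↥H).map H.subtype := ⟨_, rfl⟩
  rw [← hX]
  have hXcard : (Nat.card X).Coprime p := by rw [hX, Subgroup.card_subtype]; exact hXc
  have hXH : X ≤ H := by rw [hX]; exact Subgroup.map_subtype_le _
  have hNX : ∀ n ∈ H, ∀ x ∈ X, n * x * n⁻¹ ∈ X := by
    intro n hn x hx
    rw [hX] at hx ⊢
    obtain ⟨x₀, hx₀, rfl⟩ := hx
    have hnorm : (pPrimeCore p ↥H).Normal := inferInstance
    refine ⟨⟨n, hn⟩ * x₀ * ⟨n, hn⟩⁻¹, hnorm.conj_mem x₀ hx₀ ⟨n, hn⟩, ?_⟩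
    simp
  have hXP : ∀ x ∈ X, ∀ y ∈ P, x * y = y * x := by
    intro x hx y hy
    exact (Subgroup.mem_centralizer_iff.mp (hHC (hXH hx)) y hy).symm
  apply Cfsg.Agent.S0631.core_gen hc P hP X hXcard hXP
  intro y hyC hyK x hx
  have h1 : (QuotientGroup.mk' (pPrimeCore p G)) (y * x * y⁻¹ * x⁻¹)
      ∈ X.map (QuotientGroup.mk' (pPrimeCore p G)) :=
    Subgroup.mem_map_of_mem _ (X.mul_mem (hNX y (hCH hyC) x hx) (X.inv_mem hx))
  have h2 : (QuotientGroup.mk' (pPrimeCore p G)) (y * x * y⁻¹ * x⁻¹)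
      ∈ pCore p (G ⧸ pPrimeCore p G) := by
    have e : (QuotientGroup.mk' (pPrimeCore p G)) (y * x * y⁻¹ * x⁻¹)
        = (QuotientGroup.mk' (pPrimeCore p G)) y
          * ((QuotientGroup.mk' (pPrimeCore p G)) x
            * ((QuotientGroup.mk' (pPrimeCore p G)) y)⁻¹
            * ((QuotientGroup.mk' (pPrimeCore p G)) x)⁻¹) := by
      simp only [map_mul, map_inv]; group
    rw [e]
    have hyQ : (QuotientGroup.mk' (pPrimeCore p G)) y ∈ pCore p (G ⧸ pPrimeCore p G) := hyK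
    exact mul_mem hyQ (hQn.conj_mem _ (inv_mem hyQ) _)
  have h3 := Subgroup.mem_inf.2 ⟨h1, h2⟩
  rw [Cfsg.Agent.S0631.map_inf_pCore_eq_bot X hXcard, Subgroup.mem_bot] at h3
  have h5 : y * x = (y * x * y⁻¹ * x⁻¹) * (x * y) := by group
  have h6 : (QuotientGroup.mk' (pPrimeCore p G)) (y * x)
      = (QuotientGroup.mk' (pPrimeCore p G)) (x * y) := by
    rw [h5, map_mul, h3, one_mul]
  exact h6.symm

/-- In a `p`-constrained group, `O_{p'}(C_G(P)) = O_{p'}(G) ∩ C_G(P)`. -/
theorem pPrimeCore_centralizer_eq {G : Type*} [Group G] [Finite G] {p : ℕ} [Fact p.Prime]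
    (hG : IsPConstrained p G) (P : Subgroup G) (hP : IsPGroup p P) (H : Subgroup G)
    (hCH : Subgroup.centralizer (P : Set G) ≤ H) (hHC : H ≤ Subgroup.centralizer (P : Set G)) :
    (pPrimeCore p G).subgroupOf H = pPrimeCore p ↥H := by
  apply le_antisymm (Cfsg.Agent.S0631.subgroupOf_pPrimeCore_le H)
  intro x hx
  rw [Subgroup.mem_subgroupOf]
  exact pPrimeCore_centralizer_le hG P hP H hCH hHC ⟨x, hx, rfl⟩

end Cfsg.Agent.Lib.Helper33
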