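import Cfsg.Agent.Lib.Helper98.T73Defs
import Cfsg.Prelude.Def_GeometricClasses
import Cfsg.Agent.Lib.Helper66.QuadSTD
import Cfsg.Agent.Lib.Helper63.QuadCW

/-!
# Project T73 (S5973), piece CPX2A (helper33 for helper98)

`x² = -1` in `Ω⁺_{2d}(F)` with `-1` a nonsquare: invariant totally singular subspaces of every even
dimension `≤ d` (extend by `⟨v, x v⟩` for a singular `v ∈ W^⊥ ∖ W`).
-/

set_option autoImplicit false

namespace Cfsg.Agent.Lib.Helper98.T73

open Cfsg.Agent.Lib.Helper47 Module Polynomial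

universe u

variable {F : Type u} [Field F] [Fintype F]

omit [Fintype F] in
/-- the map `v ↦ B(·, v)` restricted to `W` -/
def cpx2a_L {V : Type*} [AddCommGroup V] [Module F V] {B : V → V → F}
    (hB : IsSForm (RingHom.id F) 1 B) (W : Submodule F V) : V →ₗ[F] Module.Dual F W where
  toFun v :=
    { toFun := fun w => B (w : V) v
      map_add' := fun w w' => hB.add_left _ _ _
      map_smul' := fun c w => hB.smul_left _ _ _ }
  map_add' v v' := by
    ext w
    exact hB.add_right _ _ _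
  map_smul' c v := by
    ext w
    simpa using hB.smul_right c (w : V) v

omit [Fintype F] in
theorem cpx2a_orth_dim {V : Type*} [AddCommGroup V] [Module F V] [FiniteDimensional F V]
    {B : V → V → F} (hB : IsSForm (RingHom.id F) 1 B) (W : Submodule F V) :
    finrank F V ≤ finrank F W + finrank F (hB.orth W) := by
  have h1 := LinearMap.finrank_range_add_finrank_ker (cpx2a_L hB W)
  have h2 : LinearMap.ker (cpx2a_L hB W) = hB.orth W := by
    ext v
    rw [LinearMap.mem_ker, hB.mem_orth]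
    constructor
    · intro h x hx
      exact LinearMap.congr_fun h ⟨x, hx⟩
    · intro h
      ext w
      exact h w w.2
  have h3 : finrank F (LinearMap.range (cpx2a_L hB W)) ≤ finrank F W := by
    have := Submodule.finrank_le (LinearMap.range (cpx2a_L hB W))
    rwa [Subspace.dual_finrank_eq] at this
  rw [h2] at h1
  omega

theorem cpx2a_step (h2 : (2 : F) ≠ 0) (hns : ¬ IsSquare (-1 : F)) (d : ℕ)
    (X : Module.End F (Fin d ⊕ Fin d → F))
    (hXQ : ∀ v, Cfsg.quadFormPlus d F (X v) = Cfsg.quadFormPlus d F v)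
    (hX2 : ∀ v, X (X v) = -v) (j : ℕ) (hj : 2 * j + 2 ≤ d)
    (W : Submodule F (Fin d ⊕ Fin d → F)) (hWd : finrank F W = 2 * j)
    (hWts : ∀ w ∈ W, Cfsg.quadFormPlus d F w = 0) (hWinv : W.map X ≤ W) :
    ∃ W' : Submodule F (Fin d ⊕ Fin d → F), finrank F W' = 2 * j + 2 ∧
      (∀ w ∈ W', Cfsg.quadFormPlus d F w = 0) ∧ W'.map X ≤ W' := by
  classical
  have hQ := Cfsg.Agent.Lib.Helper66.QuadSTD.quadFormPlus_isQuad (F := F) d
  have hB := hQ.form
  have hXB : ∀ u v, Cfsg.Agent.Lib.Helper66.QuadSTD.plusB d F (X u) (X v) =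
      Cfsg.Agent.Lib.Helper66.QuadSTD.plusB d F u v := fun u v => hQ.isometry hQ X hXQ u v
  have hsymm : ∀ u v, Cfsg.Agent.Lib.Helper66.QuadSTD.plusB d F u v =
      Cfsg.Agent.Lib.Helper66.QuadSTD.plusB d F v u := by
    intro u v
    have := hB.symm v u
    simpa using this
  have hWW : ∀ w ∈ W, ∀ w' ∈ W, Cfsg.Agent.Lib.Helper66.QuadSTD.plusB d F w w' = 0 := by
    intro w hw w' hw'
    have := hQ.polar w w'
    rw [hWts w hw, hWts w' hw', hWts _ (W.add_mem hw hw')] at this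
    simpa using this.symm
  have hWO : W ≤ hB.orth W := by
    intro v hv
    rw [hB.mem_orth]
    intro y hy
    exact hWW y hy v hv
  have hdim : finrank F (Fin d ⊕ Fin d → F) = 2 * d := by
    rw [Module.finrank_fintype_fun_eq_card, Fintype.card_sum, Fintype.card_fin]
    omega
  obtain ⟨C0, hC0⟩ := Submodule.exists_isCompl W
  have hO : hB.orth W = W ⊔ (C0 ⊓ hB.orth W) := by
    have := sup_inf_assoc_of_le C0 hWO
    rw [hC0.sup_eq_top, top_inf_eq] at this
    exact this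
  have h1 : finrank F (hB.orth W) ≤ finrank F W + finrank F ↥(C0 ⊓ hB.orth W) := by
    conv_lhs => rw [hO]
    exact Submodule.finrank_add_le_finrank_add_finrank _ _
  have h0 := cpx2a_orth_dim hB W
  have hC3 : 3 ≤ finrank F ↥(C0 ⊓ hB.orth W) := by omega
  have hWC : W ⊓ (C0 ⊓ hB.orth W) = ⊥ := by
    rw [eq_bot_iff]
    intro z hz
    have : z ∈ W ⊓ C0 := ⟨hz.1, hz.2.1⟩
    rwa [hC0.inf_eq_bot] at this
  obtain ⟨v, hv0, hvQ⟩ := Cfsg.Agent.Lib.Helper63.exists_singular (hQ.res (C0 ⊓ hB.orth W)) hC3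
  have hvQ' : Cfsg.quadFormPlus d F (v : Fin d ⊕ Fin d → F) = 0 := hvQ
  have hvO : (v : Fin d ⊕ Fin d → F) ∈ hB.orth W := v.2.2
  have hvW : (v : Fin d ⊕ Fin d → F) ∉ W := by
    intro hvW
    have : (v : Fin d ⊕ Fin d → F) ∈ W ⊓ (C0 ⊓ hB.orth W) := ⟨hvW, v.2⟩
    rw [hWC, Submodule.mem_bot] at this
    exact hv0 (Subtype.ext this)
  obtain ⟨v₀, hv₀⟩ : ∃ v₀ : Fin d ⊕ Fin d → F, v₀ = (v : Fin d ⊕ Fin d → F) := ⟨_, rfl⟩
  rw [← hv₀] at hvQ' hvO hvW
  have hBv : Cfsg.Agent.Lib.Helper66.QuadSTD.plusB d F v₀ (X v₀) = 0 := by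
    have e1 : Cfsg.Agent.Lib.Helper66.QuadSTD.plusB d F v₀ (X v₀) =
        Cfsg.Agent.Lib.Helper66.QuadSTD.plusB d F (X v₀) (X (X v₀)) := (hXB v₀ (X v₀)).symm
    rw [hX2, hB.neg_right, hsymm (X v₀) v₀] at e1
    have e2 : (2 : F) * Cfsg.Agent.Lib.Helper66.QuadSTD.plusB d F v₀ (X v₀) = 0 := by
      linear_combination e1
    rcases mul_eq_zero.mp e2 with h | h
    · exact absurd h h2
    · exact h
  have hBw : ∀ w ∈ W, Cfsg.Agent.Lib.Helper66.QuadSTD.plusB d F w v₀ = 0 :=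
    fun w hw => hvO w hw
  have hBwX : ∀ w ∈ W, Cfsg.Agent.Lib.Helper66.QuadSTD.plusB d F w (X v₀) = 0 := by
    intro w hw
    have hw' : -(X w) ∈ W := W.neg_mem (hWinv (Submodule.mem_map_of_mem hw))
    have e : X (-(X w)) = w := by rw [map_neg, hX2, neg_neg]
    calc Cfsg.Agent.Lib.Helper66.QuadSTD.plusB d F w (X v₀)
        = Cfsg.Agent.Lib.Helper66.QuadSTD.plusB d F (X (-(X w))) (X v₀) := by rw [e]
      _ = Cfsg.Agent.Lib.Helper66.QuadSTD.plusB d F (-(X w)) v₀ := hXB _ _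
      _ = 0 := hBw _ hw'
  have hQX : Cfsg.quadFormPlus d F (X v₀) = 0 := by rw [hXQ]; exact hvQ'
  have hpair : ∀ a b : F, Cfsg.quadFormPlus d F (a • v₀ + b • X v₀) = 0 := by
    intro a b
    rw [hQ.polar, hQ.smul, hQ.smul, hvQ', hQX, hB.smul_left, hB.smul_right, hBv]
    simp
  have hpairB : ∀ w ∈ W, ∀ a b : F,
      Cfsg.Agent.Lib.Helper66.QuadSTD.plusB d F w (a • v₀ + b • X v₀) = 0 := by
    intro w hw a b
    rw [hB.add_right, hB.smul_right, hB.smul_right, hBw w hw, hBwX w hw]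
    simp
  have key : ∀ a b : F, a • v₀ + b • X v₀ ∈ W → a = 0 ∧ b = 0 := by
    intro a b hz
    have hz' : a • X v₀ - b • v₀ ∈ W := by
      have := hWinv (Submodule.mem_map_of_mem hz)
      rw [map_add, map_smul, map_smul, hX2] at this
      simpa [sub_eq_add_neg] using this
    have h3 : (a * a + b * b) • v₀ ∈ W := by
      have := W.sub_mem (W.smul_mem a hz) (W.smul_mem b hz')
      have e : a • (a • v₀ + b • X v₀) - b • (a • X v₀ - b • v₀) = (a * a + b * b) • v₀ := by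
        module
      rwa [e] at this
    have h4 : a * a + b * b = 0 := by
      by_contra hne
      apply hvW
      have := W.smul_mem (a * a + b * b)⁻¹ h3
      rwa [smul_smul, inv_mul_cancel₀ hne, one_smul] at this
    by_cases hb : b = 0
    · subst hb
      simp at h4
      exact ⟨h4, rfl⟩
    · exfalso
      apply hns
      have h5 : (a / b) * (a / b) = -1 := by
        field_simp
        linear_combination h4
      exact ⟨a / b, h5.symm⟩
  have hSmem : ∀ z, z ∈ Submodule.span F (Set.range ![v₀, X v₀]) ↔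
      ∃ a b : F, z = a • v₀ + b • X v₀ := by
    intro z
    rw [Submodule.mem_span_range_iff_exists_fun]
    constructor
    · rintro ⟨c, rfl⟩
      exact ⟨c 0, c 1, by simp [Fin.sum_univ_two]⟩
    · rintro ⟨a, b, rfl⟩
      exact ⟨![a, b], by simp [Fin.sum_univ_two]⟩
  have hli : LinearIndependent F ![v₀, X v₀] :=
    LinearIndependent.pair_iff.mpr (fun s t h => key s t (h ▸ W.zero_mem))
  have hSdim : finrank F (Submodule.span F (Set.range ![v₀, X v₀])) = 2 := by
    rw [finrank_span_eq_card hli]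
    simp
  have hWS : W ⊓ Submodule.span F (Set.range ![v₀, X v₀]) = ⊥ := by
    rw [eq_bot_iff]
    intro z hz
    obtain ⟨a, b, rfl⟩ := (hSmem z).mp hz.2
    obtain ⟨rfl, rfl⟩ := key a b hz.1
    simp
  refine ⟨W ⊔ Submodule.span F (Set.range ![v₀, X v₀]), ?_, ?_, ?_⟩
  · have := Submodule.finrank_sup_add_finrank_inf_eq W (Submodule.span F (Set.range ![v₀, X v₀]))
    rw [hWS, finrank_bot, hWd, hSdim] at this
    omega
  · intro z hz
    obtain ⟨w, hw, s, hs, rfl⟩ := Submodule.mem_sup.mp hz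
    obtain ⟨a, b, rfl⟩ := (hSmem s).mp hs
    rw [hQ.polar, hWts w hw, hpair, hpairB w hw]
    simp
  · rintro _ ⟨z, hz, rfl⟩
    obtain ⟨w, hw, s, hs, rfl⟩ := Submodule.mem_sup.mp hz
    obtain ⟨a, b, rfl⟩ := (hSmem s).mp hs
    rw [map_add]
    refine Submodule.add_mem _ (Submodule.mem_sup_left (hWinv (Submodule.mem_map_of_mem hw)))
      (Submodule.mem_sup_right ?_)
    rw [hSmem]
    refine ⟨-b, a, ?_⟩
    rw [map_add, map_smul, map_smul, hX2]
    module

/-- CPX2A -/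
theorem cpx_fix_even (h2 : (2 : F) ≠ 0) (hns : ¬ IsSquare (-1 : F)) (d m : ℕ) (hme : Even m)
    (hm : m ≤ d) (x : GL (Fin d ⊕ Fin d) F)
    (hx : x ∈ Cfsg.Geo.omegaGL (Cfsg.quadFormPlus d F))
    (hx2 : (x : Matrix (Fin d ⊕ Fin d) (Fin d ⊕ Fin d) F)
        * (x : Matrix (Fin d ⊕ Fin d) (Fin d ⊕ Fin d) F)
      = (-1 : F) • (1 : Matrix (Fin d ⊕ Fin d) (Fin d ⊕ Fin d) F)) :
    ∃ W : Submodule F (Fin d ⊕ Fin d → F), finrank F W = m ∧
      (∀ w ∈ W, Cfsg.quadFormPlus d F w = 0) ∧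
      W.map (Matrix.toLin' (x : Matrix (Fin d ⊕ Fin d) (Fin d ⊕ Fin d) F)) ≤ W := by
  classical
  obtain ⟨j, hj⟩ := hme
  have hXQ : ∀ v, Cfsg.quadFormPlus d F
      (Matrix.mulVec (x : Matrix (Fin d ⊕ Fin d) (Fin d ⊕ Fin d) F) v) =
        Cfsg.quadFormPlus d F v := by
    obtain ⟨y, -, rfl⟩ := hx
    intro v
    exact y.2 v v
  have hX2 : ∀ v, Matrix.toLin' (x : Matrix (Fin d ⊕ Fin d) (Fin d ⊕ Fin d) F)
      (Matrix.toLin' (x : Matrix (Fin d ⊕ Fin d) (Fin d ⊕ Fin d) F) v) = -v := by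
    intro v
    rw [Matrix.toLin'_apply, Matrix.toLin'_apply, Matrix.mulVec_mulVec, hx2, Matrix.smul_mulVec,
      Matrix.one_mulVec, neg_one_smul]
  have key : ∀ k : ℕ, 2 * k ≤ d → ∃ W : Submodule F (Fin d ⊕ Fin d → F),
      finrank F W = 2 * k ∧ (∀ w ∈ W, Cfsg.quadFormPlus d F w = 0) ∧
      W.map (Matrix.toLin' (x : Matrix (Fin d ⊕ Fin d) (Fin d ⊕ Fin d) F)) ≤ W := by
    intro k
    induction k with
    | zero =>
      intro _
      refine ⟨⊥, by simp, ?_, by simp⟩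
      intro w hw
      rw [Submodule.mem_bot] at hw
      subst hw
      exact (Cfsg.Agent.Lib.Helper66.QuadSTD.quadFormPlus_isQuad (F := F) d).map_zero
    | succ k ih =>
      intro hk
      obtain ⟨W, hWd, hWts, hWinv⟩ := ih (by omega)
      obtain ⟨W', h1, h2', h3⟩ := cpx2a_step h2 hns d
        (Matrix.toLin' (x : Matrix (Fin d ⊕ Fin d) (Fin d ⊕ Fin d) F))
        (fun v => by rw [Matrix.toLin'_apply]; exact hXQ v) hX2 k (by omega) W hWd hWts hWinv
      exact ⟨W', by omega, h2', h3⟩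
  obtain ⟨W, h1, h2', h3⟩ := key j (by omega)
  exact ⟨W, by omega, h2', h3⟩

end Cfsg.Agent.Lib.Helper98.T73
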