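import Mathlib
import Cfsg.Prelude.Def_Characters
import Cfsg.Agent.Lib.Helper4.CharClosure
import Cfsg.Agent.Lib.Helper4.BrSpan
import Cfsg.Agent.Lib.Helper4.BrLocal2
import Cfsg.Agent.Lib.Helper4.CharDual
import Cfsg.Agent.Lib.Helper20.LinChar

/-!
# Integrality of the components of a character on `⟨z⟩ × K` (helper33)

For a character `h` of `G`, `z` of order dividing `p` commuting with the subgroup `K`, a `p`-th root
of unity `ω` and a character `φ` of `K`:
`|K|⁻¹ ∑_s (p⁻¹ ∑_t conj(ω^(b t)) h(z^t s)) conj(φ s)` is a natural number.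
-/

set_option autoImplicit false

namespace Cfsg.Agent.Lib.Helper33.TI

open Cfsg
open scoped ComplexConjugate

variable {G : Type*} [Group G]

/-- the homomorphism `t ↦ x ^ t.val` from `Multiplicative (ZMod p)`. -/
noncomputable def zpowHom (p : ℕ) [NeZero p] {A : Type*} [Monoid A] (x : A) (hx : x ^ p = 1) :
    Multiplicative (ZMod p) →* A where
  toFun t := x ^ (Multiplicative.toAdd t).val
  map_one' := by simp
  map_mul' a b := by
    rw [toAdd_mul, ZMod.val_add, ← pow_add]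
    exact (pow_eq_pow_mod _ hx).symm

theorem zpowHom_apply (p : ℕ) [NeZero p] {A : Type*} [Monoid A] (x : A) (hx : x ^ p = 1)
    (t : Multiplicative (ZMod p)) : zpowHom p x hx t = x ^ (Multiplicative.toAdd t).val := rfl

/-- the homomorphism `(t, s) ↦ z ^ t * s`. -/
noncomputable def prodHom (p : ℕ) [NeZero p] (z : G) (hz : z ^ p = 1) (K : Subgroup G)
    (hKz : ∀ y ∈ K, y * z = z * y) : Multiplicative (ZMod p) × K →* G :=
  MonoidHom.noncommCoprod (zpowHom p z hz) K.subtype (by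
    intro t s
    exact ((show Commute z (s : G) from (hKz s s.2).symm).pow_left _))

theorem prodHom_apply (p : ℕ) [NeZero p] (z : G) (hz : z ^ p = 1) (K : Subgroup G)
    (hKz : ∀ y ∈ K, y * z = z * y) (a : Multiplicative (ZMod p) × K) :
    prodHom p z hz K hKz a = z ^ (Multiplicative.toAdd a.1).val * (a.2 : G) := rfl

/-- **INT**: the multiplicity of `ν_b × φ` in the restriction of `h` to `⟨z⟩ × K`. -/
theorem comp_inner_nat (p : ℕ) [Fact p.Prime] (z : G) (hz : z ^ p = 1) (K : Subgroup G)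
    [Fintype K] (hKz : ∀ y ∈ K, y * z = z * y) (ω : ℂ) (hω : ω ^ p = 1)
    (h : G → ℂ) (hh : IsCharacter G h) (b : ZMod p) (φ : K → ℂ) (hφ : IsCharacter K φ) :
    ∃ k : ℕ, (Nat.card K : ℂ)⁻¹ * ∑ s : K,
      ((p : ℂ)⁻¹ * ∑ t : ZMod p, conj (ω ^ (b * t).val) * h (z ^ t.val * (s : G))) *
        conj (φ s) = (k : ℂ) := by
  classical
  have hp := (Fact.out : p.Prime)
  have : NeZero p := ⟨hp.ne_zero⟩
  -- the linear character of `Multiplicative (ZMod p)`
  have hωu : IsUnit ω := IsUnit.of_pow_eq_one hω hp.ne_zero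
  set ωu : ℂˣ := hωu.unit with hωu_def
  have hωu1 : ωu ^ p = 1 := by
    apply Units.ext
    rw [Units.val_pow_eq_pow_val, hωu_def, IsUnit.unit_spec, hω]; rfl
  have hωub : (ωu ^ b.val) ^ p = 1 := by
    rw [← pow_mul, mul_comm, pow_mul, hωu1, one_pow]
  let lin : Multiplicative (ZMod p) →* ℂˣ := zpowHom p (ωu ^ b.val) hωub
  have hlin : ∀ t : Multiplicative (ZMod p),
      ((lin t : ℂˣ) : ℂ) = ω ^ (b * Multiplicative.toAdd t).val := by
    intro t
    change (((ωu ^ b.val) ^ (Multiplicative.toAdd t).val : ℂˣ) : ℂ) = _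
    rw [Units.val_pow_eq_pow_val, Units.val_pow_eq_pow_val, hωu_def, IsUnit.unit_spec, ← pow_mul,
      ZMod.val_mul]
    exact pow_eq_pow_mod _ hω
  have hc1 : IsCharacter (Multiplicative (ZMod p) × K)
      (fun a => ((lin a.1 : ℂˣ) : ℂ)) :=
    Cfsg.Agent.Lib.Helper4.isCharacter_comp (MonoidHom.fst (Multiplicative (ZMod p)) K)
      (fun t => ((lin t : ℂˣ) : ℂ)) (Cfsg.Agent.Lib.Helper20.isCharacter_of_hom lin).1
  have hc2 : IsCharacter (Multiplicative (ZMod p) × K) (fun a => φ a.2) :=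
    Cfsg.Agent.Lib.Helper4.isCharacter_comp (MonoidHom.snd (Multiplicative (ZMod p)) K) φ hφ
  have hc3 := Cfsg.Agent.Lib.Helper4.isCharacter_mul _ _ hc1 hc2
  have hc4 : IsCharacter (Multiplicative (ZMod p) × K) (fun a => h (prodHom p z hz K hKz a)) :=
    Cfsg.Agent.Lib.Helper4.isCharacter_comp (prodHom p z hz K hKz) h hh
  obtain ⟨k, hk⟩ := Cfsg.Agent.Lib.Helper4.classInner_isCharacter_isCharacter_nat _ _ hc4 hc3
  refine ⟨k, ?_⟩
  rw [← hk]
  unfold classInner
  have hcard : (Nat.card (Multiplicative (ZMod p) × K) : ℂ) = (p : ℂ) * (Nat.card K : ℂ) := by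
    rw [Nat.card_prod]
    push_cast
    congr 1
    rw [Nat.card_eq_fintype_card]
    have : Fintype.card (Multiplicative (ZMod p)) = p := by
      rw [Fintype.card_multiplicative, ZMod.card]
    rw [this]
  rw [hcard, Fintype.sum_prod_type, Finset.sum_comm, Finset.mul_sum, Finset.mul_sum]
  apply Finset.sum_congr rfl
  intro s _
  rw [Finset.mul_sum, Finset.sum_mul, Finset.mul_sum]
  rw [Finset.mul_sum]
  have hsum : ∀ f : Multiplicative (ZMod p) → ℂ,
      ∑ x : Multiplicative (ZMod p), f x = ∑ i : ZMod p, f (Multiplicative.ofAdd i) :=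
    fun f => (Equiv.sum_comp Multiplicative.ofAdd f).symm
  rw [hsum]
  apply Finset.sum_congr rfl
  intro i _
  simp only [Pi.mul_apply, prodHom_apply, hlin, toAdd_ofAdd, map_mul]
  have hp0 : (p : ℂ) ≠ 0 := by exact_mod_cast hp.ne_zero
  have hK0 : (Nat.card K : ℂ) ≠ 0 := by exact_mod_cast Nat.card_pos.ne'
  field_simp

end Cfsg.Agent.Lib.Helper33.TI
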