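import Mathlib
import Cfsg.Prelude.Def_Characters
import Cfsg.Agent.Lib.Helper33.TIComp
import Cfsg.Agent.Lib.Helper33.TIFour
import Cfsg.Agent.Lib.Helper33.TISum

/-!
# The components of a class function on `⟨z⟩ × K` (helper33)

`comp p ω z K h b s = p⁻¹ ∑_t conj(ω^(b t)) h(z^t s)`: the `ν_b`-component of `h` restricted to
`⟨z⟩ × K`, a function on `K`.
-/

set_option autoImplicit false

namespace Cfsg.Agent.Lib.Helper33.TI

open Cfsg
open scoped ComplexConjugate

variable {G : Type*} [Group G]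

/-- the `ν_b`-component on `K` of the restriction of `h` to `⟨z⟩ × K`. -/
noncomputable def comp (p : ℕ) [Fact p.Prime] (ω : ℂ) (z : G) (K : Subgroup G) (h : G → ℂ)
    (b : ZMod p) (s : K) : ℂ :=
  (p : ℂ)⁻¹ * ∑ t : ZMod p, conj (ω ^ (b * t).val) * h (z ^ t.val * (s : G))

variable (p : ℕ) [Fact p.Prime] (ω : ℂ) (z : G) (K : Subgroup G)

theorem comp_def (h : G → ℂ) (b : ZMod p) (s : K) :
    comp p ω z K h b s =
      (p : ℂ)⁻¹ * ∑ t : ZMod p, conj (ω ^ (b * t).val) * h (z ^ t.val * (s : G)) := rfl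

/-- Fourier inversion. -/
theorem comp_inv (hω : IsPrimitiveRoot ω p) (h : G → ℂ) (t : ZMod p) (s : K) :
    h (z ^ t.val * (s : G)) = ∑ b : ZMod p, ω ^ (b * t).val * comp p ω z K h b s :=
  (fourier_inv p ω hω (fun t' => h (z ^ t'.val * (s : G))) t).symm

theorem comp_sum_all (hω : IsPrimitiveRoot ω p) (h : G → ℂ) (s : K) :
    ∑ b : ZMod p, comp p ω z K h b s = h (s : G) := by
  have := comp_inv p ω z K hω h 0 s
  simp only [mul_zero, ZMod.val_zero, pow_zero, one_mul] at this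
  exact this.symm

theorem comp_add (h h' : G → ℂ) (b : ZMod p) (s : K) :
    comp p ω z K (fun g => h g + h' g) b s = comp p ω z K h b s + comp p ω z K h' b s := by
  simp only [comp_def, mul_add, Finset.sum_add_distrib]

theorem comp_sub (h h' : G → ℂ) (b : ZMod p) (s : K) :
    comp p ω z K (fun g => h g - h' g) b s = comp p ω z K h b s - comp p ω z K h' b s := by
  simp only [comp_def, mul_sub, Finset.sum_sub_distrib]

theorem comp_smul (c : ℂ) (h : G → ℂ) (b : ZMod p) (s : K) :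
    comp p ω z K (fun g => c * h g) b s = c * comp p ω z K h b s := by
  simp only [comp_def, Finset.mul_sum]
  apply Finset.sum_congr rfl
  intro t _
  ring

theorem comp_sum {ι : Type*} (S : Finset ι) (h : ι → G → ℂ) (b : ZMod p) (s : K) :
    comp p ω z K (fun g => ∑ i ∈ S, h i g) b s = ∑ i ∈ S, comp p ω z K (h i) b s := by
  simp only [comp_def, Finset.mul_sum]
  rw [Finset.sum_comm]

theorem comp_zero (b : ZMod p) (s : K) : comp p ω z K (fun _ => 0) b s = 0 := by
  simp [comp_def]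

theorem comp_congr (h h' : G → ℂ) (hh : ∀ (t : ZMod p) (s : K),
    h (z ^ t.val * (s : G)) = h' (z ^ t.val * (s : G))) (b : ZMod p) (s : K) :
    comp p ω z K h b s = comp p ω z K h' b s := by
  simp only [comp_def, hh]

/-- **INT**. -/
theorem comp_nat [Fintype K] (hz : z ^ p = 1) (hKz : ∀ y ∈ K, y * z = z * y) (hω : ω ^ p = 1)
    (h : G → ℂ) (hh : IsCharacter G h) (b : ZMod p) (φ : K → ℂ) (hφ : IsCharacter K φ) :
    ∃ k : ℕ, classInner (comp p ω z K h b) φ = (k : ℂ) :=
  comp_inner_nat p z hz K hKz ω hω h hh b φ hφ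

/-- components of a product `α * conj β`. -/
theorem comp_mul_conj (hω : IsPrimitiveRoot ω p) (α β : G → ℂ) (μ : ZMod p) (s : K) :
    comp p ω z K (fun g => α g * conj (β g)) μ s =
      ∑ ν : ZMod p, comp p ω z K α (ν + μ) s * conj (comp p ω z K β ν s) := by
  have hp := (Fact.out : p.Prime)
  have hω1 : ω ^ p = 1 := hω.pow_eq_one
  have hp0 : (p : ℂ) ≠ 0 := by exact_mod_cast hp.ne_zero
  -- expand `β` by Fourier inversion inside the left side
  have hL : comp p ω z K (fun g => α g * conj (β g)) μ s =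
      (p : ℂ)⁻¹ * ∑ t : ZMod p, conj (ω ^ (μ * t).val) * (α (z ^ t.val * (s : G)) *
        conj (∑ ν : ZMod p, ω ^ (ν * t).val * comp p ω z K β ν s)) := by
    rw [comp_def]
    congr 1
    apply Finset.sum_congr rfl
    intro t _
    rw [← comp_inv p ω z K hω β t s]
  rw [hL]
  simp only [map_sum, map_mul, Finset.mul_sum]
  rw [Finset.sum_comm]
  apply Finset.sum_congr rfl
  intro ν _
  rw [comp_def p ω z K α, Finset.mul_sum, Finset.sum_mul]
  apply Finset.sum_congr rfl
  intro t _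
  have e1 : conj (ω ^ ((ν + μ) * t).val) = conj (ω ^ (μ * t).val) * conj (ω ^ (ν * t).val) := by
    rw [← map_mul, ← pow_val_add p ω hω1]
    congr 3
    ring
  rw [e1]
  ring

/-- Galois twists. -/
theorem comp_twist (h h' : G → ℂ) (m : ZMod p) (hm : m ≠ 0)
    (hh : ∀ (t : ZMod p) (s : K), h' (z ^ t.val * (s : G)) = h (z ^ (m * t).val * (s : G)))
    (b : ZMod p) (s : K) :
    comp p ω z K h' b s = comp p ω z K h (b * m⁻¹) s := by
  rw [comp_def, comp_def]
  congr 1
  simp only [hh]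
  rw [← Equiv.sum_comp (Equiv.mulLeft₀ m hm)
    (fun t => conj (ω ^ (b * m⁻¹ * t).val) * h (z ^ t.val * (s : G)))]
  apply Finset.sum_congr rfl
  intro t _
  have e0 : (Equiv.mulLeft₀ m hm) t = m * t := rfl
  rw [e0]
  have : b * m⁻¹ * (m * t) = b * t := by
    field_simp
  rw [this]

/-- a function which is `δ Φ` on the `z ^ t * s`, `t ≠ 0`: its components. -/
theorem comp_of_type (hω : IsPrimitiveRoot ω p) (h : G → ℂ) (δ : ℂ) (Φ : K → ℂ)
    (hh : ∀ t : ZMod p, t ≠ 0 → ∀ s : K, h (z ^ t.val * (s : G)) = δ * Φ s) :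
    (∀ (b : ZMod p) (s : K), b ≠ 0 → comp p ω z K h b s = comp p ω z K h 1 s) ∧
      ∀ s : K, comp p ω z K h 0 s = comp p ω z K h 1 s + δ * Φ s := by
  have hp := (Fact.out : p.Prime)
  have hω1 : ω ^ p = 1 := hω.pow_eq_one
  have hp0 : (p : ℂ) ≠ 0 := by exact_mod_cast hp.ne_zero
  -- the shifted coefficients `c b = comp h b s - [b = 0] δ Φ s`
  have key : ∀ s : K, ∀ b b' : ZMod p,
      (comp p ω z K h b s - if b = 0 then δ * Φ s else 0) =
        (comp p ω z K h b' s - if b' = 0 then δ * Φ s else 0) := by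
    intro s
    apply const_of_fourier_zero p ω hω
    intro t ht
    have h1 := comp_inv p ω z K hω h t s
    rw [hh t ht s] at h1
    simp only [mul_sub, Finset.sum_sub_distrib]
    rw [← h1]
    simp
  have h10 : (1 : ZMod p) ≠ 0 := one_ne_zero
  constructor
  · intro b s hb
    have := key s b 1
    rwa [if_neg hb, if_neg h10, sub_zero, sub_zero] at this
  · intro s
    have := key s 0 1
    rw [if_pos rfl, if_neg h10, sub_zero] at this
    linear_combination this

/-- `N`-equivariance of the components of a class function. -/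
theorem comp_conj (hz : z ^ p = 1) (h : G → ℂ) (hcl : ∀ g x : G, h (x * g * x⁻¹) = h g)
    (n : G) (κ : ZMod p) (hκ0 : κ ≠ 0) (hκ : n⁻¹ * z * n = z ^ κ.val)
    (s s' : K) (hs : (s' : G) = n⁻¹ * (s : G) * n) (b : ZMod p) :
    comp p ω z K h b s = comp p ω z K h (b * κ⁻¹) s' := by
  have hp := (Fact.out : p.Prime)
  have : NeZero p := ⟨hp.ne_zero⟩
  have h1 : ∀ t : ZMod p, h (z ^ t.val * (s : G)) = h (z ^ (κ * t).val * (s' : G)) := by
    intro t
    have e1 : z ^ (κ * t).val * (s' : G) = n⁻¹ * (z ^ t.val * (s : G)) * n⁻¹⁻¹ := by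
      rw [hs, inv_inv]
      have e2 : z ^ (κ * t).val = n⁻¹ * z ^ t.val * n := by
        have e3 : n⁻¹ * z ^ t.val * n = (n⁻¹ * z * n) ^ t.val := by
          have := conj_pow (a := n⁻¹) (b := z) (i := t.val)
          rw [inv_inv] at this
          exact this.symm
        rw [e3, hκ, ← pow_mul, ZMod.val_mul]
        exact (pow_eq_pow_mod _ hz).symm
      rw [e2]; group
    rw [e1, hcl]
  rw [comp_def, comp_def]
  congr 1
  simp only [h1]
  rw [← Equiv.sum_comp (Equiv.mulLeft₀ κ hκ0)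
    (fun t => conj (ω ^ (b * κ⁻¹ * t).val) * h (z ^ t.val * (s' : G)))]
  apply Finset.sum_congr rfl
  intro t _
  have e0 : (Equiv.mulLeft₀ κ hκ0) t = κ * t := rfl
  rw [e0]
  have : b * κ⁻¹ * (κ * t) = b * t := by
    field_simp
  rw [this]

/-- Parseval for the components. -/
theorem comp_parseval (hω : IsPrimitiveRoot ω p) (Δ ξ : G → ℂ) (s : K) :
    ∑ t : ZMod p, Δ (z ^ t.val * (s : G)) * conj (ξ (z ^ t.val * (s : G))) =
      (p : ℂ) * ∑ b : ZMod p, comp p ω z K Δ b s * conj (comp p ω z K ξ b s) := by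
  have hp := (Fact.out : p.Prime)
  have hp0 : (p : ℂ) ≠ 0 := by exact_mod_cast hp.ne_zero
  have h1 : ∀ t : ZMod p, Δ (z ^ t.val * (s : G)) * conj (ξ (z ^ t.val * (s : G))) =
      ∑ b : ZMod p, comp p ω z K Δ b s * (ω ^ (b * t).val * conj (ξ (z ^ t.val * (s : G)))) := by
    intro t
    rw [comp_inv p ω z K hω Δ t s, Finset.sum_mul]
    apply Finset.sum_congr rfl
    intro b _
    ring
  rw [Finset.sum_congr rfl (fun t _ => h1 t), Finset.sum_comm, Finset.mul_sum]
  apply Finset.sum_congr rfl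
  intro b _
  rw [← Finset.mul_sum, comp_def p ω z K ξ]
  simp only [map_mul, map_sum, map_inv₀, Complex.conj_conj, Complex.conj_natCast]
  field_simp

/-- **TI + Parseval**: for a class function `Δ` vanishing on the `p`-regular elements,
`⟨Δ, ξ⟩_G = (p |K| / |N|) ∑_b ⟨comp Δ b, comp ξ b⟩_K`. -/
theorem ti_inner_comp [Fintype G] (P : Sylow p G) (hP : Nat.card P = p)
    (hz : z ∈ (P : Subgroup G)) (hz1 : z ≠ 1) [Fintype K]
    (hK : ∀ y : G, y ∈ K ↔ (y * z = z * y ∧ ¬ p ∣ orderOf y))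
    (hω : IsPrimitiveRoot ω p)
    (Δ ξ : G → ℂ) (hΔ : ∀ g h : G, Δ (h * g * h⁻¹) = Δ g)
    (hξ : ∀ g h : G, ξ (h * g * h⁻¹) = ξ g)
    (hΔ0 : ∀ g : G, ¬ p ∣ orderOf g → Δ g = 0) :
    classInner Δ ξ =
      ((p : ℂ) * (Nat.card K : ℂ) /
          (Nat.card (Subgroup.normalizer ((P : Subgroup G) : Set G)) : ℂ)) *
        ∑ b : ZMod p, classInner (comp p ω z K Δ b) (comp p ω z K ξ b) := by
  have hp := (Fact.out : p.Prime)
  have hp0 : (p : ℂ) ≠ 0 := by exact_mod_cast hp.ne_zero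
  have hK0 : (Nat.card K : ℂ) ≠ 0 := by exact_mod_cast Nat.card_pos.ne'
  have hN0 : (Nat.card (Subgroup.normalizer ((P : Subgroup G) : Set G)) : ℂ) ≠ 0 := by
    exact_mod_cast Nat.card_pos.ne'
  rw [ti_inner p P hP z hz hz1 K hK Δ ξ hΔ hξ hΔ0]
  have h1 : (∑ t : ZMod p, if t = 0 then 0 else
      ∑ y : K, Δ (z ^ t.val * (y : G)) * conj (ξ (z ^ t.val * (y : G)))) =
      ∑ t : ZMod p, ∑ y : K, Δ (z ^ t.val * (y : G)) * conj (ξ (z ^ t.val * (y : G))) := by
    apply Finset.sum_congr rfl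
    intro t _
    by_cases ht : t = 0
    · rw [if_pos ht, ht]
      symm
      apply Finset.sum_eq_zero
      intro y _
      rw [ZMod.val_zero, pow_zero, one_mul, hΔ0 (y : G) ((hK y).mp y.2).2, zero_mul]
    · rw [if_neg ht]
  rw [h1, Finset.sum_comm]
  simp only [comp_parseval p ω z K hω Δ ξ]
  unfold classInner
  rw [← Finset.mul_sum, Finset.sum_comm, ← Finset.mul_sum]
  field_simp

end Cfsg.Agent.Lib.Helper33.TI
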