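import Mathlib
import Cfsg.Prelude.Def_GeometricClasses
import Cfsg.Prelude.Def_LieClassical

/-! Project SPG / TIF (helper71, S5662), piece T2a (helper33): the bilinear forms invariant under a
group spanning the full matrix algebra are the multiples of one non-degenerate form, which is
symmetric or skew (Schur). -/

set_option autoImplicit false

namespace Cfsg.Agent.Lib.Helper33.TIFT2a

open Matrix Cfsg.Geo

variable {n : ℕ} {F : Type*} [Field F] [Fintype F]

omit [Fintype F] in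
/-- for invariant `M` and `A ∈ R`: `M * A = (A⁻¹)ᵀ * M` -/
theorem T2a_swap {m : ℕ} (R : Subgroup (GL (Fin m) F)) (M : Matrix (Fin m) (Fin m) F)
    (hM : ∀ A ∈ R, A.1ᵀ * M * A.1 = M) (A : GL (Fin m) F) (hA : A ∈ R) :
    M * A.1 = (A⁻¹).1ᵀ * M := by
  have h := hM A⁻¹ (R.inv_mem hA)
  calc M * A.1 = ((A⁻¹).1ᵀ * M * (A⁻¹).1) * A.1 := by rw [h]
    _ = (A⁻¹).1ᵀ * M * ((A⁻¹).1 * A.1) := by rw [Matrix.mul_assoc]
    _ = (A⁻¹).1ᵀ * M := by
        rw [← Units.val_mul, inv_mul_cancel, Units.val_one, Matrix.mul_one]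

omit [Fintype F] in
/-- induction over the span of the matrices of `R` -/
theorem T2a_span {m : ℕ} (R : Subgroup (GL (Fin m) F))
    (hspan : Submodule.span F (matrixSet R) = ⊤)
    (p : Matrix (Fin m) (Fin m) F → Prop) (hmem : ∀ A ∈ R, p A.1) (h0 : p 0)
    (hadd : ∀ X Y, p X → p Y → p (X + Y)) (hsmul : ∀ (c : F) X, p X → p (c • X)) :
    ∀ X, p X := by
  intro X
  have hX : X ∈ Submodule.span F (matrixSet R) := by rw [hspan]; exact Submodule.mem_top
  refine Submodule.span_induction (p := fun X _ => p X) ?_ h0 (fun X Y _ _ => hadd X Y)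
    (fun c X _ => hsmul c X) hX
  rintro _ ⟨A, hA, rfl⟩
  exact hmem A hA

/-- T2a: the bilinear forms invariant under a group spanning the full matrix algebra are the
multiples of one non-degenerate form, which is symmetric or skew. -/
theorem T2a {m : ℕ} (R : Subgroup (GL (Fin m) F)) (hspan : Submodule.span F (matrixSet R) = ⊤) :
    ∃ G₀ : Matrix (Fin m) (Fin m) F, G₀.det ≠ 0 ∧ (G₀ᵀ = G₀ ∨ G₀ᵀ = -G₀) ∧
      ∀ M : Matrix (Fin m) (Fin m) F, (∀ A ∈ R, A.1ᵀ * M * A.1 = M) → ∃ c : F, M = c • G₀ := by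
  classical
  by_cases hex : ∃ M₀ : Matrix (Fin m) (Fin m) F, M₀ ≠ 0 ∧ ∀ A ∈ R, A.1ᵀ * M₀ * A.1 = M₀
  swap
  · refine ⟨1, by simp, Or.inl Matrix.transpose_one, ?_⟩
    intro M hM
    refine ⟨0, ?_⟩
    rw [zero_smul]
    by_contra hne
    exact hex ⟨M, hne, hM⟩
  obtain ⟨M₀, hM₀, hinv₀⟩ := hex
  have hdet : M₀.det ≠ 0 := by
    intro hd
    obtain ⟨v, hv, hMv⟩ := Matrix.exists_mulVec_eq_zero_iff.mpr hd
    have hall : ∀ X : Matrix (Fin m) (Fin m) F, M₀ *ᵥ (X *ᵥ v) = 0 := by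
      apply T2a_span R hspan
      · intro A hA
        rw [Matrix.mulVec_mulVec, T2a_swap R M₀ hinv₀ A hA, ← Matrix.mulVec_mulVec, hMv,
          Matrix.mulVec_zero]
      · simp
      · intro X Y hX hY
        rw [Matrix.add_mulVec, Matrix.mulVec_add, hX, hY, add_zero]
      · intro c X hX
        rw [Matrix.smul_mulVec, Matrix.mulVec_smul, hX, smul_zero]
    obtain ⟨i, hi⟩ := Function.ne_iff.mp hv
    have hi' : v i ≠ 0 := hi
    apply hM₀
    ext a j
    have h1 := hall (Matrix.single j i (v i)⁻¹)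
    rw [Matrix.single_mulVec, inv_mul_cancel₀ hi'] at h1
    have h2 : Function.update (0 : Fin m → F) j 1 = Pi.single j 1 := rfl
    rw [h2, Matrix.mulVec_single_one] at h1
    simpa using congrFun h1 a
  have hMinv : IsUnit M₀.det := isUnit_iff_ne_zero.mpr hdet
  have hscalar : ∀ M : Matrix (Fin m) (Fin m) F, (∀ A ∈ R, A.1ᵀ * M * A.1 = M) →
      ∃ c : F, M = c • M₀ := by
    intro M hM
    have hcomm : ∀ Y : Matrix (Fin m) (Fin m) F, Y * (M₀⁻¹ * M) = (M₀⁻¹ * M) * Y := by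
      apply T2a_span R hspan
      · intro A hA
        have h1 := T2a_swap R M hM A hA
        have h2 := T2a_swap R M₀ hinv₀ A hA
        have h3 : M₀⁻¹ * (A⁻¹).1ᵀ = A.1 * M₀⁻¹ := by
          calc M₀⁻¹ * (A⁻¹).1ᵀ = M₀⁻¹ * ((A⁻¹).1ᵀ * M₀) * M₀⁻¹ := by
                rw [Matrix.mul_assoc, Matrix.mul_assoc, Matrix.mul_nonsing_inv _ hMinv,
                  Matrix.mul_one]
            _ = M₀⁻¹ * (M₀ * A.1) * M₀⁻¹ := by rw [h2]
            _ = A.1 * M₀⁻¹ := by
                rw [← Matrix.mul_assoc M₀⁻¹, Matrix.nonsing_inv_mul _ hMinv, Matrix.one_mul]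
        calc A.1 * (M₀⁻¹ * M) = (A.1 * M₀⁻¹) * M := by rw [Matrix.mul_assoc]
          _ = M₀⁻¹ * (A⁻¹).1ᵀ * M := by rw [h3]
          _ = M₀⁻¹ * (M * A.1) := by rw [Matrix.mul_assoc, h1]
          _ = (M₀⁻¹ * M) * A.1 := by rw [Matrix.mul_assoc]
      · simp
      · intro X Y hX hY
        rw [Matrix.add_mul, Matrix.mul_add, hX, hY]
      · intro c X hX
        rw [Matrix.smul_mul, Matrix.mul_smul, hX]
    have hsc : M₀⁻¹ * M ∈ Set.range (Matrix.scalar (Fin m)) :=
      Matrix.mem_range_scalar_of_commute_single (fun i j _ => hcomm (Matrix.single i j 1))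
    obtain ⟨c, hc⟩ := hsc
    refine ⟨c, ?_⟩
    calc M = M₀ * (M₀⁻¹ * M) := by
          rw [← Matrix.mul_assoc, Matrix.mul_nonsing_inv _ hMinv, Matrix.one_mul]
      _ = M₀ * (Matrix.scalar (Fin m) c) := by rw [hc]
      _ = c • M₀ := by
          ext a b
          simp [Matrix.scalar_apply, Matrix.mul_apply, Matrix.diagonal_apply, mul_comm]
  have hT : ∀ A ∈ R, A.1ᵀ * M₀ᵀ * A.1 = M₀ᵀ := by
    intro A hA
    have := congrArg Matrix.transpose (hinv₀ A hA)
    rw [Matrix.transpose_mul, Matrix.transpose_mul, Matrix.transpose_transpose,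
      ← Matrix.mul_assoc] at this
    exact this
  obtain ⟨c, hc⟩ := hscalar M₀ᵀ hT
  have hc2 : c * c = 1 := by
    have h1 : M₀ = c • (c • M₀) := by
      have := congrArg Matrix.transpose hc
      rw [Matrix.transpose_transpose, Matrix.transpose_smul, hc] at this
      exact this
    rw [smul_smul] at h1
    by_contra hne
    apply hM₀
    have h2 : (1 - c * c) • M₀ = 0 := by rw [sub_smul, one_smul, ← h1, sub_self]
    rcases smul_eq_zero.mp h2 with h3 | h3
    · exact absurd (sub_eq_zero.mp h3).symm hne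
    · exact h3
  have hc1 : c = 1 ∨ c = -1 := by
    have h : (c - 1) * (c + 1) = 0 := by linear_combination hc2
    rcases mul_eq_zero.mp h with h | h
    · left; exact sub_eq_zero.mp h
    · right; exact eq_neg_of_add_eq_zero_left h
  refine ⟨M₀, hdet, ?_, hscalar⟩
  rcases hc1 with rfl | rfl
  · left; rw [hc, one_smul]
  · right; rw [hc, neg_smul, one_smul]

end Cfsg.Agent.Lib.Helper33.TIFT2a
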